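import Cfsg.Agent.Lib.Helper74.SymAlgDefs

/-!
# The centralizer of a system of matrix units (helper74)
-/

set_option autoImplicit false

namespace Cfsg.Agent.Lib.Helper74.SymAlg

/-- the centralizer of a system of matrix units -/
abbrev cenU (F : Type*) {A : Type*} [Field F] [Ring A] [Algebra F A] {n : ℕ}
    (a : Fin n → Fin n → A) : Subalgebra F A :=
  Subalgebra.centralizer F (Set.range fun ij : Fin n × Fin n => a ij.1 ij.2)

end Cfsg.Agent.Lib.Helper74.SymAlg
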