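import Mathlib
import Cfsg.Agent.Lib.Helper74.AbSylowMain
import Cfsg.Agent.Lib.Helper81.Schur

/-!
# Abelian Sylow subgroups with semiregular `N(P)/C(P)`: products of two conjugate involutions
-/

set_option autoImplicit false
set_option linter.unusedSectionVars false

namespace Cfsg.Agent.Lib.Helper74

open Cfsg Cfsg.Agent.Lib.Helper78
open scoped ComplexConjugate

theorem sum_bcoef_mul' {A : Type*} [Group A] [Fintype A] {I : Type*} [Fintype I] (X : I → A → ℂ)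
    (g : I → ℂ) (ψ : A →* ℂˣ) (hg : ∀ x : A, ψ x ≠ 1 → ∑ i, X i x * g i = 0) :
    ∑ i, bcoef (X i) ψ * g i = 0 := by
  unfold bcoef
  simp_rw [mul_assoc, Finset.sum_mul]
  rw [← Finset.mul_sum, Finset.sum_comm]
  rw [Finset.sum_eq_zero, mul_zero]
  intro x _
  by_cases hx : ψ x = 1
  · simp [hx]
  · have : ∀ i, X i x * (conj ((ψ x : ℂˣ) : ℂ) - 1) * g i =
        (conj ((ψ x : ℂˣ) : ℂ) - 1) * (X i x * g i) := by intro i; ring
    simp_rw [this]
    rw [← Finset.mul_sum, hg x hx, mul_zero]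

section mult

variable {G : Type*} [Group G] [Finite G] {p : ℕ} [Fact p.Prime] {M : Ideal Cfsg.AlgInt}
  (hM : Cfsg.IsPModular p M) (P : Sylow p G) (hab : IsMulCommutative P)
  (hfrob : ∀ y : G, y ∈ (P : Subgroup G) → y ≠ 1 →
    Subgroup.centralizer ({y} : Set G) ⊓ Subgroup.normalizer ((P : Subgroup G) : Set G) =
      Subgroup.centralizer ((P : Subgroup G) : Set G))

include hM hab hfrob in
theorem resX_col' {g gp : G} (hg : IsPPart p g gp) (x : ↥(P : Subgroup G)) (hx : x ≠ 1)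
    (hnc : ¬ IsConj gp (x : G)⁻¹) :
    ∑ χ : IrrCharacter G, resX M P χ x * (χ : G → ℂ) g = 0 := by
  classical
  have hx1 : (x : G)⁻¹ ≠ 1 := fun h => hx (Subtype.ext (inv_eq_one.1 h))
  have h := ab_col_inner hM P hab hfrob ((P : Subgroup G).inv_mem x.2) hx1 hg
  rw [if_neg hnc, finsum_mem_irr] at h
  rw [← h]
  apply Finset.sum_congr rfl
  intro χ _
  unfold resX
  split_ifs
  · rw [irr_inv, Complex.conj_conj]; ring
  · simp

include hM hab hfrob in
/-- the class multiplication identity in the principal block -/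
theorem ab_class_mult [Fintype ↥(P : Subgroup G)] (ψ : ↥(P : Subgroup G) →* ℂˣ) (t : G)
    (ht : ∀ h gp : G, IsPPart p (t * (h * t * h⁻¹)) gp → ∀ x : ↥(P : Subgroup G), ψ x ≠ 1 →
      ¬ IsConj gp (x : G)⁻¹) :
    ∑ χ : IrrCharacter G, bcoef (resX M P χ) ψ * ((χ : G → ℂ) t ^ 2 / (χ : G → ℂ) 1) = 0 := by
  classical
  have : Fintype G := Fintype.ofFinite G
  obtain ⟨c, e, hc, -⟩ := Cfsg.Agent.Lib.Helper4.exists_pPartExp G p
  have hcard : (Fintype.card G : ℂ) ≠ 0 := by exact_mod_cast Fintype.card_ne_zero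
  have h5 : ∀ χ : IrrCharacter G, bcoef (resX M P χ) ψ * ((χ : G → ℂ) t ^ 2 / (χ : G → ℂ) 1)
      = (Fintype.card G : ℂ)⁻¹ * ∑ h : G, bcoef (resX M P χ) ψ * (χ : G → ℂ) (t * (h * t * h⁻¹)) := by
    intro χ
    rw [← Finset.mul_sum, Cfsg.Agent.Lib.Helper81.IsIrrCharacter.sum_mul_conj χ.2]
    field_simp
  simp_rw [h5]
  rw [← Finset.mul_sum, Finset.sum_comm, Finset.sum_eq_zero, mul_zero]
  intro h _
  apply sum_bcoef_mul'
  intro x hx
  have hx1 : x ≠ 1 := by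
    rintro rfl
    exact hx (map_one ψ)
  exact resX_col' hM P hab hfrob ((hc _ _).2 rfl) x hx1 (ht h _ ((hc _ _).2 rfl) x hx)

include hab hfrob in
/-- real elements of `P` are involutions when `N(P)/C(P)` has odd order -/
theorem ab_real_sq (hodd : Odd (Nat.card (autS P))) {x : G} (hx : x ∈ (P : Subgroup G))
    (hreal : IsConj x x⁻¹) : x * x = 1 := by
  by_cases hx1 : x = 1
  · rw [hx1, one_mul]
  obtain ⟨n, hn, hn'⟩ := ab_fusion P hab hx ((P : Subgroup G).inv_mem hx) hreal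
  obtain ⟨σ, hσ⟩ : ∃ σ, σ = (P : Subgroup G).normalizerMonoidHom ⟨n, hn⟩ := ⟨_, rfl⟩
  have hσS : σ ∈ autS P := ⟨_, hσ.symm⟩
  have hσx : σ ⟨x, hx⟩ = ⟨x, hx⟩⁻¹ := by
    rw [hσ]
    exact Subtype.ext hn'
  have hx1' : (⟨x, hx⟩ : ↥(P : Subgroup G)) ≠ 1 := fun h => hx1 (congrArg Subtype.val h)
  have hσ2 : σ * σ = 1 := by
    apply autS_semireg P hfrob _ ((autS P).mul_mem hσS hσS) ⟨x, hx⟩ hx1'
    rw [MulAut.mul_apply, hσx, map_inv, hσx, inv_inv]
  have h1 : orderOf (⟨σ, hσS⟩ : autS P) ∣ 2 := by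
    apply orderOf_dvd_of_pow_eq_one
    rw [pow_two]
    exact Subtype.ext hσ2
  have h2 : orderOf (⟨σ, hσS⟩ : autS P) ∣ Nat.card (autS P) := orderOf_dvd_natCard _
  have h3 : orderOf (⟨σ, hσS⟩ : autS P) = 1 :=
    Nat.eq_one_of_dvd_coprimes (Nat.coprime_two_left.2 hodd) h1 h2
  rw [orderOf_eq_one_iff] at h3
  have h4 : σ = 1 := congrArg Subtype.val h3
  rw [h4, MulAut.one_apply] at hσx
  have h5 : x = x⁻¹ := congrArg Subtype.val hσx
  calc x * x = x * x⁻¹ := by rw [← h5]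
    _ = 1 := mul_inv_cancel x

theorem invol_inverts {t v : G} (ht : t * t = 1) (hv : v * v = 1) :
    t * (t * v) * t⁻¹ = (t * v)⁻¹ ∧ v * (t * v) * v⁻¹ = (t * v)⁻¹ := by
  have ht' : t⁻¹ = t := inv_eq_of_mul_eq_one_left ht
  have hv' : v⁻¹ = v := inv_eq_of_mul_eq_one_left hv
  constructor
  · rw [mul_inv_rev, ht', hv', ← mul_assoc, ht, one_mul]
  · rw [mul_inv_rev, ht', hv', mul_assoc, mul_assoc, hv, mul_one]

theorem pPart_inverted {g gp u : G} (hg : IsPPart p g gp) (hu : u * g * u⁻¹ = g⁻¹) :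
    u * gp * u⁻¹ = gp⁻¹ := by
  obtain ⟨c, e, hc, -⟩ := Cfsg.Agent.Lib.Helper4.exists_pPartExp G p
  rw [(hc g gp).1 hg, ← conj_pow, hu, inv_pow]

end mult

end Cfsg.Agent.Lib.Helper74
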