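import Mathlib
import Cfsg.Agent.Lib.Helper74.AbSylowMain

/-!
# Abelian Sylow subgroups with semiregular `N(P)/C(P)` of order three
-/

set_option autoImplicit false
set_option linter.unusedSectionVars false

namespace Cfsg.Agent.Lib.Helper74

open Cfsg Cfsg.Agent.Lib.Helper78
open scoped ComplexConjugate

section three

variable {G : Type*} [Group G] [Finite G] {p : ℕ} [Fact p.Prime] {M : Ideal Cfsg.AlgInt}
  (hM : Cfsg.IsPModular p M) (P : Sylow p G) (hab : IsMulCommutative P)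
  (hfrob : ∀ y : G, y ∈ (P : Subgroup G) → y ≠ 1 →
    Subgroup.centralizer ({y} : Set G) ⊓ Subgroup.normalizer ((P : Subgroup G) : Set G) =
      Subgroup.centralizer ((P : Subgroup G) : Set G))
  [Fintype ↥(P : Subgroup G)] [Fintype (↥(P : Subgroup G) →* ℂˣ)] [DecidableEq (IrrCharacter G)]
  (hm : Nat.card (autS P) + 1 < Nat.card ↥(P : Subgroup G))

theorem not_dvd_orderOf_one : ¬ p ∣ orderOf (1 : G) := by
  rw [orderOf_one]; exact (Fact.out : p.Prime).one_lt.ne' ∘ Nat.dvd_one.1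

include hm in
theorem ab_exists_ne_one : ∃ y : ↥(P : Subgroup G), y ≠ 1 := by
  by_contra hcon
  push Not at hcon
  have : Subsingleton ↥(P : Subgroup G) := ⟨fun a b => by rw [hcon a, hcon b]⟩
  have h1 : Nat.card ↥(P : Subgroup G) = 1 := Nat.card_unique
  omega

section
variable {ε : ℤ} {w : IrrCharacter G → ℤ} {θ : (↥(P : Subgroup G) →* ℂˣ) → IrrCharacter G} {c : ℤ}
  (D : SemiregData (autS P) (resX M P) ε w θ c)

include hM hab hfrob hm D in
theorem ab_w_triv : w (trivIrr G) = -1 := by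
  obtain ⟨y, hy⟩ := ab_exists_ne_one P hm
  have hy1 : (y : G) ≠ 1 := fun h => hy (Subtype.ext h)
  have h := ab_value_X hM P hab hfrob D (trivIrr_mem_principalBlock (pmod_isPrime hM))
    (ab_triv_not_mem hM P hab hfrob hm D) (isPPart_self (exists_orderOf_eq_pow P y.2)) y.2 hy1
  have h1 : ((trivIrr G : IrrCharacter G) : G → ℂ) (y : G) = 1 := rfl
  rw [h1] at h
  have h2 : ((w (trivIrr G) : ℤ) : ℂ) = ((-1 : ℤ) : ℂ) := by push_cast; linear_combination h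
  exact_mod_cast h2

end

include hM hab hfrob hm in
theorem ab3_exists_data (h3 : Nat.card (autS P) = 3) : ∃ (ε : ℤ) (w : IrrCharacter G → ℤ)
    (θ : (↥(P : Subgroup G) →* ℂˣ) → IrrCharacter G),
    SemiregData (autS P) (resX M P) ε w θ 0 := by
  obtain ⟨ε, w, θ, c, D⟩ := ab_exists_data hM P hab hfrob hm
  have hc := ab_hc P hab
  have hS := autS_semireg P hfrob
  have hwt := ab_w_triv hM P hab hfrob hm D
  have htY := ab_triv_not_mem hM P hab hfrob hm D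
  obtain ⟨μ₀, hμ₀⟩ : ∃ μ : ↥(P : Subgroup G) →* ℂˣ, μ ≠ 1 := by
    obtain ⟨l, _, hl, _⟩ := exists_not_dRel hc (autS P) hS hm
    exact ⟨l, hl⟩
  have hnorm := D.norm hμ₀
  rw [h3] at hnorm
  have hrm : (Yf θ).card * 3 = Nat.card ↥(P : Subgroup G) - 1 := by
    have := D.card_Yf hc hS
    rwa [h3] at this
  have hr2 : 2 ≤ (Yf θ).card := by omega
  have hsplit : ∑ i ∈ (Yf θ)ᶜ, w i ^ 2 = 1 + ∑ i ∈ (Yf θ)ᶜ.erase (trivIrr G), w i ^ 2 := by
    rw [← Finset.add_sum_erase _ _ (Finset.mem_compl.2 htY), hwt]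
    norm_num
  have hnn : 0 ≤ ∑ i ∈ (Yf θ)ᶜ.erase (trivIrr G), w i ^ 2 :=
    Finset.sum_nonneg (fun _ _ => sq_nonneg _)
  by_cases hc0 : c = 0
  · subst hc0; exact ⟨ε, w, θ, D⟩
  have hr2' : (2 : ℤ) ≤ ((Yf θ).card : ℤ) := by exact_mod_cast hr2
  rw [hsplit] at hnorm
  obtain ⟨Sg, hSg⟩ : ∃ Sg : ℤ, Sg = ∑ i ∈ (Yf θ)ᶜ.erase (trivIrr G), w i ^ 2 := ⟨_, rfl⟩
  rw [← hSg] at hnorm hnn
  obtain ⟨r, hr⟩ : ∃ r : ℤ, r = ((Yf θ).card : ℤ) := ⟨_, rfl⟩
  rw [← hr] at hnorm hr2'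
  push_cast at hnorm
  have hcsq : c ^ 2 ≤ 3 := by
    nlinarith [sq_nonneg (c + ε), sq_nonneg c, mul_nonneg (by linarith : 0 ≤ r - 2) (sq_nonneg c)]
  have hcb : -1 ≤ c ∧ c ≤ 1 := by constructor <;> nlinarith
  have hkey : c = -ε ∧ r + Sg = 4 := by
    obtain ⟨h1, h2⟩ := hcb
    rcases D.hε with h | h <;> subst h <;> interval_cases c <;> first | omega | (exfalso; omega) | skip
  obtain ⟨hcε, hrSg⟩ := hkey
  have hr4 : (Yf θ).card ≤ 4 := by
    have : ((Yf θ).card : ℤ) ≤ 4 := by rw [← hr]; omega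
    exact_mod_cast this
  have hcases : (Yf θ).card = 2 ∨ (Yf θ).card = 3 ∨ (Yf θ).card = 4 := by omega
  rcases hcases with h2 | h2 | h2
  · obtain ⟨w', θ', D', -⟩ := D.swap h2
    rw [hcε, neg_add_cancel] at D'
    exact ⟨-ε, w', θ', D'⟩
  · exfalso
    have h10 : Nat.card ↥(P : Subgroup G) = 10 := by omega
    obtain ⟨k, hk⟩ := IsPGroup.iff_card.1 P.2
    rw [h10] at hk
    have hp : p.Prime := Fact.out
    have e2 : 2 = p := (Nat.prime_dvd_prime_iff_eq Nat.prime_two hp).1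
      (Nat.Prime.dvd_of_dvd_pow Nat.prime_two (by rw [← hk]; norm_num))
    have e5 : 5 = p := (Nat.prime_dvd_prime_iff_eq (by norm_num) hp).1
      (Nat.Prime.dvd_of_dvd_pow (by norm_num) (by rw [← hk]; norm_num))
    omega
  · exfalso
    have hSg0 : Sg = 0 := by
      rw [hr, h2] at hrSg
      push_cast at hrSg
      omega
    have hw0 : ∀ i ∈ (Yf θ)ᶜ.erase (trivIrr G), w i = 0 := by
      intro i hi
      rw [hSg] at hSg0
      have := (Finset.sum_eq_zero_iff_of_nonneg (fun _ _ => sq_nonneg _)).1 hSg0 i hi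
      exact pow_eq_zero_iff (two_ne_zero) |>.1 this
    have hrel := D.rel (fun χ => (χ : G → ℂ) 1) (resX_reg hM P not_dvd_orderOf_one) hμ₀
    rw [← Finset.add_sum_erase _ _ (Finset.mem_compl.2 htY), Finset.sum_eq_zero (fun i hi => by
      rw [hw0 i hi]; simp), hwt, h2, hcε, irr_one_eq] at hrel
    have h1 : ((trivIrr G : IrrCharacter G) : G → ℂ) 1 = 1 := rfl
    rw [h1] at hrel
    have hrel' : ((4 : ℤ) * (-ε) + ε) * (charDegree (θ μ₀ : G → ℂ) : ℤ) + (-1) * 1 + 0 = 0 := by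
      have : ((((4 : ℤ) * (-ε) + ε) * (charDegree (θ μ₀ : G → ℂ) : ℤ) + (-1) * 1 + 0 : ℤ) : ℂ) = 0 := by
        push_cast
        push_cast at hrel
        linear_combination hrel
      exact_mod_cast this
    rcases D.hε with h | h <;> subst h <;> omega

/-- the normal form of the principal block when `|N(P) : C(P)| = 3` -/
structure AB3 (M : Ideal Cfsg.AlgInt) (P : Sylow p G) [Fintype ↥(P : Subgroup G)] (ε : ℤ)
    (w : IrrCharacter G → ℤ) (θ : (↥(P : Subgroup G) →* ℂˣ) → IrrCharacter G)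
    (χ₁ χ₂ : IrrCharacter G) : Prop where
  D : SemiregData (autS P) (resX M P) ε w θ 0
  ne12 : χ₁ ≠ χ₂
  ne1 : χ₁ ≠ trivIrr G
  ne2 : χ₂ ≠ trivIrr G
  w1 : w χ₁ = 1 ∨ w χ₁ = -1
  w2 : w χ₂ = 1 ∨ w χ₂ = -1
  wt : w (trivIrr G) = -1
  rest : ∀ χ, χ ≠ trivIrr G → χ ≠ χ₁ → χ ≠ χ₂ → w χ = 0

include hM hab hfrob hm in
theorem ab3_exists (h3 : Nat.card (autS P) = 3) : ∃ (ε : ℤ) (w : IrrCharacter G → ℤ)
    (θ : (↥(P : Subgroup G) →* ℂˣ) → IrrCharacter G) (χ₁ χ₂ : IrrCharacter G),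
    AB3 M P ε w θ χ₁ χ₂ := by
  obtain ⟨ε, w, θ, D⟩ := ab3_exists_data hM P hab hfrob hm h3
  have hc := ab_hc P hab
  have hS := autS_semireg P hfrob
  have hwt := ab_w_triv hM P hab hfrob hm D
  obtain ⟨μ₀, hμ₀⟩ : ∃ μ : ↥(P : Subgroup G) →* ℂˣ, μ ≠ 1 := by
    obtain ⟨l, _, hl, _⟩ := exists_not_dRel hc (autS P) hS hm
    exact ⟨l, hl⟩
  have hnorm := D.norm hμ₀
  rw [h3] at hnorm
  have hεsq : ε ^ 2 = 1 := by rcases D.hε with h | h <;> rw [h] <;> norm_num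
  have hY0 : ∑ i ∈ Yf θ, w i ^ 2 = 0 := by
    apply Finset.sum_eq_zero
    intro i hi
    obtain ⟨μ, hμ, rfl⟩ := mem_Yf.1 hi
    rw [D.hw μ hμ]; norm_num
  have hall : ∑ i, w i ^ 2 = 3 := by
    rw [← Finset.sum_add_sum_compl (Yf θ), hY0]
    push_cast at hnorm
    nlinarith
  have hu : ∑ i, (if i = trivIrr G then 0 else w i) ^ 2 = 2 := by
    rw [← Finset.add_sum_erase _ _ (Finset.mem_univ (trivIrr G))] at hall ⊢
    rw [hwt] at hall
    rw [if_pos rfl]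
    have : ∑ i ∈ Finset.univ.erase (trivIrr G), (if i = trivIrr G then 0 else w i) ^ 2 =
        ∑ i ∈ Finset.univ.erase (trivIrr G), w i ^ 2 := by
      apply Finset.sum_congr rfl
      intro i hi
      rw [if_neg (Finset.ne_of_mem_erase hi)]
    rw [this]
    linarith
  obtain ⟨a, b, hab', ha, hb, hrest⟩ := sum_sq_eq_two hu
  have hat : a ≠ trivIrr G := by
    intro h
    rw [if_pos h] at ha
    omega
  have hbt : b ≠ trivIrr G := by
    intro h
    rw [if_pos h] at hb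
    omega
  rw [if_neg hat] at ha
  rw [if_neg hbt] at hb
  refine ⟨ε, w, θ, a, b, D, hab', hat, hbt, ha, hb, hwt, ?_⟩
  intro χ h1 h2 h3
  have := hrest χ h2 h3
  rwa [if_neg h1] at this

section ab3

variable {ε : ℤ} {w : IrrCharacter G → ℤ} {θ : (↥(P : Subgroup G) →* ℂˣ) → IrrCharacter G}
  {χ₁ χ₂ : IrrCharacter G} (T : AB3 M P ε w θ χ₁ χ₂)

include T in
theorem AB3.sum_w (γ : IrrCharacter G → ℂ) :
    ∑ χ, (w χ : ℂ) * γ χ = -γ (trivIrr G) + w χ₁ * γ χ₁ + w χ₂ * γ χ₂ := by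
  have hsub : ∑ χ ∈ ({trivIrr G, χ₁, χ₂} : Finset (IrrCharacter G)), (w χ : ℂ) * γ χ =
      ∑ χ, (w χ : ℂ) * γ χ := by
    apply Finset.sum_subset (Finset.subset_univ _)
    intro χ _ hχ
    simp only [Finset.mem_insert, Finset.mem_singleton, not_or] at hχ
    rw [T.rest χ hχ.1 hχ.2.1 hχ.2.2]
    simp
  rw [← hsub, Finset.sum_insert, Finset.sum_insert, Finset.sum_singleton, T.wt]
  · push_cast; ring
  · simpa using T.ne12
  · simp only [Finset.mem_insert, Finset.mem_singleton, not_or]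
    exact ⟨T.ne1.symm, T.ne2.symm⟩

include T in
theorem AB3.expand (γ : IrrCharacter G → ℂ) {ψ : ↥(P : Subgroup G) →* ℂˣ} (hψ : ψ ≠ 1) :
    ∑ χ, bcoef (resX M P χ) ψ * γ χ =
      -γ (trivIrr G) + w χ₁ * γ χ₁ + w χ₂ * γ χ₂ + ε * γ (θ ψ) := by
  simp_rw [T.D.hb ψ hψ]
  rw [← T.sum_w P γ]
  push_cast
  simp_rw [add_mul, Finset.sum_add_distrib]
  congr 1
  simp_rw [mul_assoc]
  rw [← Finset.mul_sum]
  congr 1
  simp [ind_apply]

include hab hfrob hm T in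
theorem AB3.mem1 : χ₁ ∈ principalBlock M G := by
  by_contra h
  have := ab_w_eq_zero P hab hfrob hm T.D h
  rcases T.w1 with h' | h' <;> omega

include hab hfrob hm T in
theorem AB3.mem2 : χ₂ ∈ principalBlock M G := by
  by_contra h
  have := ab_w_eq_zero P hab hfrob hm T.D h
  rcases T.w2 with h' | h' <;> omega

include T in
theorem AB3.w_of_mem_Y {χ : IrrCharacter G} (h : χ ∈ Yf θ) : w χ = 0 := by
  obtain ⟨μ, hμ, rfl⟩ := mem_Yf.1 h
  exact T.D.hw μ hμ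

include T in
theorem AB3.nY1 : χ₁ ∉ Yf θ := by
  intro h
  have := T.w_of_mem_Y P h
  rcases T.w1 with h' | h' <;> omega

include T in
theorem AB3.nY2 : χ₂ ∉ Yf θ := by
  intro h
  have := T.w_of_mem_Y P h
  rcases T.w2 with h' | h' <;> omega

include hM hab hfrob hm T in
/-- the non-exceptional members of the principal block -/
theorem AB3.X_eq : principalBlock M G \ (↑(Yf θ) : Set (IrrCharacter G)) =
    {trivIrr G, χ₁, χ₂} := by
  have hP1 : Nat.card P ≠ 1 := by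
    have : Nat.card P = Nat.card ↥(P : Subgroup G) := rfl
    omega
  ext χ
  simp only [Set.mem_sdiff, Finset.mem_coe, Set.mem_insert_iff, Set.mem_singleton_iff]
  constructor
  · rintro ⟨h1, h2⟩
    by_contra hcon
    push Not at hcon
    exact ab_w_ne_zero hM P hab hfrob T.D hP1 h1 h2 (T.rest χ hcon.1 hcon.2.1 hcon.2.2)
  · rintro (rfl | rfl | rfl)
    · exact ⟨trivIrr_mem_principalBlock (pmod_isPrime hM), ab_triv_not_mem hM P hab hfrob hm T.D⟩
    · exact ⟨T.mem1 P hab hfrob hm, T.nY1 P⟩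
    · exact ⟨T.mem2 P hab hfrob hm, T.nY2 P⟩

end ab3

end three

end Cfsg.Agent.Lib.Helper74
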