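import Mathlib
import Cfsg.Agent.Lib.Helper74.AbSylowMult
import Cfsg.Agent.Lib.Helper74.AbSylowThree
import Cfsg.Agent.Lib.Helper80.Linear
import Cfsg.Agent.Lib.Helper80.Inflation

/-!
# Abelian Sylow `p`-subgroups, `p` odd, with semiregular `N(P)/C(P)` of order three: involutions
-/

set_option autoImplicit false
set_option linter.unusedSectionVars false

namespace Cfsg.Agent.Lib.Helper74

open Cfsg Cfsg.Agent.Lib.Helper78
open scoped ComplexConjugate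

section general

variable {G : Type*} [Group G] [Finite G]

/-- character values at involutions are rational integers -/
theorem char_invol_int {χ : G → ℂ} (hχ : IsCharacter G χ) {t : G} (ht : t * t = 1) :
    ∃ z : ℤ, χ t = z := by
  classical
  obtain ⟨H, hH⟩ : ∃ H : Subgroup G, H = Subgroup.zpowers t := ⟨_, rfl⟩
  have htH : t ∈ H := by rw [hH]; exact Subgroup.mem_zpowers t
  have hcomm : ∀ a b : H, a * b = b * a := by
    intro a b
    apply Subtype.ext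
    have ha : (a : G) ∈ Subgroup.zpowers t := by rw [← hH]; exact a.2
    have hb : (b : G) ∈ Subgroup.zpowers t := by rw [← hH]; exact b.2
    obtain ⟨i, hi⟩ := Subgroup.mem_zpowers_iff.1 ha
    obtain ⟨j, hj⟩ := Subgroup.mem_zpowers_iff.1 hb
    simp only [Subgroup.coe_mul]
    rw [← hi, ← hj, ← zpow_add, ← zpow_add, add_comm]
  have : Fintype H := Fintype.ofFinite _
  have hres : IsCharacter H (fun x : H => χ x) := Helper15.char_restrict hχ H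
  have hexp := Helper15.cf_expansion (Helper15.char_cf hres)
  have hval := congrFun hexp ⟨t, htH⟩
  simp only [Finset.sum_apply, Pi.smul_apply, smul_eq_mul] at hval
  have hterm : ∀ l : IrrCharacter H, ∃ z : ℤ,
      classInner (fun x : H => χ x) (l : H → ℂ) * (l : H → ℂ) ⟨t, htH⟩ = z := by
    intro l
    obtain ⟨n, hn⟩ := Helper15.inner_nat hres (IrrCharacter.isCharacter l)
    have h1 := Helper80.char_one_eq_one_of_comm hcomm l
    have h2 := Helper80.char_mul_of_degree_one (IrrCharacter.isCharacter l) h1 ⟨t, htH⟩ ⟨t, htH⟩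
    have h3 : (⟨t, htH⟩ : H) * ⟨t, htH⟩ = 1 := Subtype.ext ht
    rw [h3, h1] at h2
    rcases mul_self_eq_one_iff.1 h2.symm with h | h
    · exact ⟨n, by rw [hn, h]; simp⟩
    · exact ⟨-n, by rw [hn, h]; simp⟩
  choose z hz using hterm
  refine ⟨∑ l, z l, ?_⟩
  rw [hval]
  push_cast
  exact Finset.sum_congr rfl (fun l _ => hz l)

theorem irr_eq_triv_of_const {χ : IrrCharacter G} (h : ∀ g, (χ : G → ℂ) g = (χ : G → ℂ) 1) :
    χ = trivIrr G := by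
  classical
  have : Fintype G := Fintype.ofFinite G
  apply Subtype.ext
  apply Helper15.irr_eq_of_inner_ne_zero χ.2 (trivIrr G).2
  unfold classInner
  have h1 : ∀ g : G, (χ : G → ℂ) g * conj (((trivIrr G : IrrCharacter G) : G → ℂ) g) =
      (χ : G → ℂ) 1 := by
    intro g
    rw [h g]
    have : ((trivIrr G : IrrCharacter G) : G → ℂ) g = 1 := rfl
    rw [this, map_one, mul_one]
  simp_rw [h1]
  rw [Finset.sum_const, Finset.card_univ, nsmul_eq_mul, Nat.card_eq_fintype_card]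
  have h2 : (Fintype.card G : ℂ) ≠ 0 := by exact_mod_cast Fintype.card_ne_zero
  have h3 := irr_one_ne_zero χ
  field_simp
  exact h3

/-- an element lying in no proper normal subgroup is in the kernel of no non-principal irreducible
character -/
theorem irr_ne_of_no_normal {t : G} (ht : ∀ K : Subgroup G, K.Normal → t ∈ K → K = ⊤)
    {χ : IrrCharacter G} (hχ : χ ≠ trivIrr G) : (χ : G → ℂ) t ≠ (χ : G → ℂ) 1 := by
  intro h
  apply hχ
  apply irr_eq_triv_of_const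
  intro g
  have h1 := ht (Helper80.charKer (χ : G → ℂ) (IrrCharacter.isCharacter χ))
    (Helper80.charKer_normal _) h
  have h2 : g ∈ Helper80.charKer (χ : G → ℂ) (IrrCharacter.isCharacter χ) := by
    rw [h1]; trivial
  exact h2

end general

section numbers

theorem sq_of_mul_sq {Δ s u : ℤ} (hs : s ≠ 0) (h : Δ * s ^ 2 = u ^ 2) : ∃ k, Δ = k ^ 2 := by
  have hdvd : s ∣ u := by
    have : s ^ 2 ∣ u ^ 2 := ⟨Δ, by rw [← h]; ring⟩
    exact (Int.pow_dvd_pow_iff two_ne_zero).1 this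
  obtain ⟨k, rfl⟩ := hdvd
  refine ⟨k, ?_⟩
  have : s ^ 2 ≠ 0 := pow_ne_zero 2 hs
  apply mul_right_cancel₀ this
  rw [h]; ring

theorem three_sq_lemma {F₁ F₂ F₃ T₁ T₂ T₃ : ℤ} (hF : 1 + F₁ + F₂ + F₃ = 0)
    (hT : 1 + T₁ + T₂ + T₃ = 0)
    (hE : F₁ * F₂ * F₃ + T₁ ^ 2 * F₂ * F₃ + T₂ ^ 2 * F₁ * F₃ + T₃ ^ 2 * F₁ * F₂ = 0)
    (hne : T₁ ≠ F₁) : ∃ k, F₁ * F₂ * F₃ = k ^ 2 := by
  apply sq_of_mul_sq (s := T₁ - F₁)
    (u := (F₁ * F₃ + F₁ * F₂) * (T₂ - F₂) + F₁ * F₂ * (T₁ - F₁)) (sub_ne_zero.2 hne)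
  have e3 : F₃ = -1 - F₁ - F₂ := by linarith
  have t3 : T₃ = -1 - T₁ - T₂ := by linarith
  subst e3 t3
  linear_combination (-(F₁ * (-1 - F₁ - F₂) + F₁ * F₂)) * hE

theorem sign_lemma {a₁ a₂ a₃ : ℤ} {f₁ f₂ f₃ : ℕ} (h1 : a₁ = 1 ∨ a₁ = -1) (h2 : a₂ = 1 ∨ a₂ = -1)
    (h3 : a₃ = 1 ∨ a₃ = -1) (hf1 : 0 < f₁) (hf2 : 0 < f₂) (hf3 : 0 < f₃)
    (hF : 1 + a₁ * f₁ + a₂ * f₂ + a₃ * f₃ = 0) (k : ℤ)
    (hk : (a₁ * f₁) * (a₂ * f₂) * (a₃ * f₃) = k ^ 2) :
    ((if a₁ = -1 then 1 else 0) + (if a₂ = -1 then 1 else 0) + (if a₃ = -1 then 1 else 0) = 2) ∧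
      IsSquare (f₃ * (f₁ * f₂)) := by
  have hpos : (0 : ℤ) < (f₁ : ℤ) * f₂ * f₃ := by positivity
  have hk0 : 0 ≤ k ^ 2 := sq_nonneg k
  have hsq : (f₁ : ℤ) * f₂ * f₃ = k ^ 2 → IsSquare (f₃ * (f₁ * f₂)) := by
    intro h
    refine ⟨k.natAbs, ?_⟩
    have : ((f₃ * (f₁ * f₂) : ℕ) : ℤ) = ((k.natAbs * k.natAbs : ℕ) : ℤ) := by
      push_cast
      rw [abs_mul_abs_self, ← pow_two, ← h]
      ring
    exact_mod_cast this
  have hf1' : (0 : ℤ) < f₁ := by exact_mod_cast hf1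
  have hf2' : (0 : ℤ) < f₂ := by exact_mod_cast hf2
  have hf3' : (0 : ℤ) < f₃ := by exact_mod_cast hf3
  rcases h1 with rfl | rfl <;> rcases h2 with rfl | rfl <;> rcases h3 with rfl | rfl
  · exfalso; linarith
  · exfalso; nlinarith
  · exfalso; nlinarith
  · exact ⟨by norm_num, hsq (by linarith)⟩
  · exfalso; nlinarith
  · exact ⟨by norm_num, hsq (by linarith)⟩
  · exact ⟨by norm_num, hsq (by linarith)⟩
  · exfalso; nlinarith

end numbers

section odd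

variable {G : Type*} [Group G] [Finite G] {p : ℕ} [Fact p.Prime] {M : Ideal Cfsg.AlgInt}
  (hM : Cfsg.IsPModular p M) (P : Sylow p G) (hab : IsMulCommutative P)
  (hfrob : ∀ y : G, y ∈ (P : Subgroup G) → y ≠ 1 →
    Subgroup.centralizer ({y} : Set G) ⊓ Subgroup.normalizer ((P : Subgroup G) : Set G) =
      Subgroup.centralizer ((P : Subgroup G) : Set G))
  [Fintype ↥(P : Subgroup G)] [Fintype (↥(P : Subgroup G) →* ℂˣ)] [DecidableEq (IrrCharacter G)]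
  (h3 : Nat.card (autS P) = 3)
  {ε : ℤ} {w : IrrCharacter G → ℤ} {θ : (↥(P : Subgroup G) →* ℂˣ) → IrrCharacter G}
  {χ₁ χ₂ : IrrCharacter G} (T : AB3 M P ε w θ χ₁ χ₂)

include hM hab hfrob h3 T in
theorem AB3.odd (hp : p ≠ 2) {t : G} (ht : t * t = 1) (hne : (χ₁ : G → ℂ) t ≠ (χ₁ : G → ℂ) 1)
    {ψ : ↥(P : Subgroup G) →* ℂˣ} (hψ : ψ ≠ 1) :
    ((if -(w χ₁) = -1 then 1 else 0) + (if -(w χ₂) = -1 then 1 else 0) +
      (if -ε = -1 then 1 else 0) = 2) ∧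
      IsSquare (charDegree (θ ψ : G → ℂ) * (charDegree (χ₁ : G → ℂ) * charDegree (χ₂ : G → ℂ))) := by
  classical
  have hpp : p.Prime := Fact.out
  have hodd : Odd (Nat.card (autS P)) := by rw [h3]; decide
  have htreg : ¬ p ∣ orderOf t := by
    intro h
    have h2 : orderOf t ∣ 2 := orderOf_dvd_of_pow_eq_one (by rw [pow_two]; exact ht)
    exact hp ((Nat.prime_dvd_prime_iff_eq hpp Nat.prime_two).1 (h.trans h2))
  have hCM := ab_class_mult hM P hab hfrob ψ t (by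
    intro h gp hg x hx hconj
    apply hx
    have hvv : (h * t * h⁻¹) * (h * t * h⁻¹) = 1 := by
      calc (h * t * h⁻¹) * (h * t * h⁻¹) = h * (t * t) * h⁻¹ := by group
        _ = 1 := by rw [ht]; group
    have ht1 := pPart_inverted hg (invol_inverts ht hvv).1
    obtain ⟨k, hk⟩ := isConj_iff.1 hconj
    have hreal : IsConj (x : G)⁻¹ ((x : G)⁻¹)⁻¹ := by
      rw [isConj_iff]
      refine ⟨k * t * k⁻¹, ?_⟩
      rw [← hk]
      calc k * t * k⁻¹ * (k * gp * k⁻¹) * (k * t * k⁻¹)⁻¹ = k * (t * gp * t⁻¹) * k⁻¹ := by group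
        _ = (k * gp * k⁻¹)⁻¹ := by rw [ht1]; group
    have hsq := ab_real_sq P hab hfrob hodd ((P : Subgroup G).inv_mem x.2) hreal
    have ho2 : orderOf (x : G)⁻¹ ∣ 2 := orderOf_dvd_of_pow_eq_one (by rw [pow_two]; exact hsq)
    obtain ⟨j, hj⟩ := exists_orderOf_eq_pow P ((P : Subgroup G).inv_mem x.2)
    have ho1 : orderOf (x : G)⁻¹ = 1 := by
      have hcop : (orderOf (x : G)⁻¹).Coprime 2 := by
        rw [hj]
        exact Nat.Coprime.pow_left j ((Nat.coprime_primes hpp Nat.prime_two).2 hp)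
      exact Nat.Coprime.eq_one_of_dvd hcop ho2
    rw [orderOf_eq_one_iff, inv_eq_one] at ho1
    have : x = 1 := Subtype.ext ho1
    rw [this, map_one])
  rw [T.expand P _ hψ] at hCM
  have hE1 := sum_bcoef_mul (resX M P) (fun χ => (χ : G → ℂ) 1)
    (resX_reg hM P not_dvd_orderOf_one) ψ
  have hE2 := sum_bcoef_mul (resX M P) (fun χ => (χ : G → ℂ) t) (resX_reg hM P htreg) ψ
  rw [T.expand P _ hψ] at hE1 hE2
  obtain ⟨z₁, hz₁⟩ := char_invol_int (IrrCharacter.isCharacter χ₁) ht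
  obtain ⟨z₂, hz₂⟩ := char_invol_int (IrrCharacter.isCharacter χ₂) ht
  obtain ⟨z₃, hz₃⟩ := char_invol_int (IrrCharacter.isCharacter (θ ψ)) ht
  have ht0 : ((trivIrr G : IrrCharacter G) : G → ℂ) t = 1 := rfl
  have ht0' : ((trivIrr G : IrrCharacter G) : G → ℂ) 1 = 1 := rfl
  rw [hz₁, irr_one_eq] at hne
  simp only [ht0'] at hE1
  simp only [ht0, hz₁, hz₂, hz₃] at hE2
  simp only [ht0, ht0', hz₁, hz₂, hz₃] at hCM
  simp only [irr_one_eq] at hE1 hCM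
  obtain ⟨f₁, hf₁⟩ : ∃ f : ℕ, f = charDegree (χ₁ : G → ℂ) := ⟨_, rfl⟩
  obtain ⟨f₂, hf₂⟩ : ∃ f : ℕ, f = charDegree (χ₂ : G → ℂ) := ⟨_, rfl⟩
  obtain ⟨f₃, hf₃⟩ : ∃ f : ℕ, f = charDegree (θ ψ : G → ℂ) := ⟨_, rfl⟩
  have hp1 : 0 < f₁ := hf₁ ▸ irr_charDegree_pos χ₁
  have hp2 : 0 < f₂ := hf₂ ▸ irr_charDegree_pos χ₂
  have hp3 : 0 < f₃ := hf₃ ▸ irr_charDegree_pos (θ ψ)
  rw [← hf₁, ← hf₂, ← hf₃] at hCM hE1 ⊢
  rw [← hf₁] at hne
  have hw1sq : w χ₁ * w χ₁ = 1 := by rcases T.w1 with h | h <;> rw [h] <;> norm_num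
  have hw2sq : w χ₂ * w χ₂ = 1 := by rcases T.w2 with h | h <;> rw [h] <;> norm_num
  have hεsq : ε * ε = 1 := by rcases T.D.hε with h | h <;> rw [h] <;> norm_num
  have hE1' : -1 + w χ₁ * f₁ + w χ₂ * f₂ + ε * f₃ = 0 := by exact_mod_cast hE1
  have hE2' : -1 + w χ₁ * z₁ + w χ₂ * z₂ + ε * z₃ = 0 := by exact_mod_cast hE2
  have hCM' : -((f₁ : ℤ) * f₂ * f₃) + w χ₁ * z₁ ^ 2 * f₂ * f₃ + w χ₂ * z₂ ^ 2 * f₁ * f₃ +
      ε * z₃ ^ 2 * f₁ * f₂ = 0 := by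
    have h1 : (f₁ : ℂ) ≠ 0 := by exact_mod_cast hp1.ne'
    have h2 : (f₂ : ℂ) ≠ 0 := by exact_mod_cast hp2.ne'
    have h3' : (f₃ : ℂ) ≠ 0 := by exact_mod_cast hp3.ne'
    have : (-((f₁ : ℂ) * f₂ * f₃) + w χ₁ * z₁ ^ 2 * f₂ * f₃ + w χ₂ * z₂ ^ 2 * f₁ * f₃ +
      ε * z₃ ^ 2 * f₁ * f₂ : ℂ) = 0 := by
      field_simp at hCM
      linear_combination hCM
    exact_mod_cast this
  have hne' : -(w χ₁) * z₁ ≠ -(w χ₁) * f₁ := by
    intro h
    apply hne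
    have : z₁ = f₁ := by
      have h2 : w χ₁ * (-(w χ₁) * z₁) = w χ₁ * (-(w χ₁) * f₁) := by rw [h]
      have e1 : w χ₁ * (-(w χ₁) * z₁) = -z₁ := by linear_combination (-z₁) * hw1sq
      have e2 : w χ₁ * (-(w χ₁) * f₁) = -(f₁ : ℤ) := by linear_combination (-(f₁ : ℤ)) * hw1sq
      rw [e1, e2] at h2
      linarith
    rw [this]
    simp
  obtain ⟨k, hk⟩ := three_sq_lemma (F₁ := -(w χ₁) * f₁) (F₂ := -(w χ₂) * f₂) (F₃ := -ε * f₃)
    (T₁ := -(w χ₁) * z₁) (T₂ := -(w χ₂) * z₂) (T₃ := -ε * z₃)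
    (by linear_combination -hE1') (by linear_combination -hE2')
    (by
      linear_combination (w χ₁ * w χ₂ * ε) * hCM')
    hne'
  exact sign_lemma (a₁ := -(w χ₁)) (a₂ := -(w χ₂)) (a₃ := -ε)
    (by rcases T.w1 with h | h <;> rw [h] <;> norm_num)
    (by rcases T.w2 with h | h <;> rw [h] <;> norm_num)
    (by rcases T.D.hε with h | h <;> rw [h] <;> norm_num) hp1 hp2 hp3
    (by linear_combination -hE1') k hk

end odd

end Cfsg.Agent.Lib.Helper74
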