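import Mathlib
import Cfsg.Agent.Lib.Helper74.AbSylowMult
import Cfsg.Agent.Lib.Helper74.AbSylowThree
import Cfsg.Agent.Lib.Helper74.KleinFour

/-!
# Abelian Sylow `2`-subgroups with semiregular `N(P)/C(P)` of odd order
-/

set_option autoImplicit false
set_option linter.unusedSectionVars false

namespace Cfsg.Agent.Lib.Helper74

open Cfsg Cfsg.Agent.Lib.Helper78
open scoped ComplexConjugate

section retraction

variable {C : Type*} [Group C] [Finite C] (Q : Sylow 2 C)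
  (hN : Subgroup.normalizer (Q : Set C) ≤ Subgroup.centralizer (Q : Set C))

theorem transferSylow_of_sq {s : C} (hs : s ∈ (Q : Subgroup C)) (hss : s * s = 1) :
    haveI : Fact (Nat.Prime 2) := ⟨Nat.prime_two⟩
    ((MonoidHom.transferSylow Q hN s : (Q : Subgroup C)) : C) = s := by
  haveI : Fact (Nat.Prime 2) := ⟨Nat.prime_two⟩
  rw [MonoidHom.transferSylow_eq_pow Q hN s hs]
  simp only
  have hodd : Odd (Q : Subgroup C).index := by
    rw [← Nat.not_even_iff_odd, even_iff_two_dvd]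
    exact Q.not_dvd_index
  obtain ⟨m, hm⟩ := hodd
  rw [hm, pow_succ, pow_mul, pow_two, hss, one_pow, one_mul]

include hN in
theorem exists_prod_of_invol {a b x y : C} (ha : a * a = 1) (hb : b * b = 1)
    (hx : x ∈ (Q : Subgroup C)) (hxx : x * x = 1) (hy : Odd (orderOf y)) (h : a * b = x * y) :
    ∃ s₁ ∈ (Q : Subgroup C), ∃ s₂ ∈ (Q : Subgroup C), IsConj a s₁ ∧ IsConj b s₂ ∧ s₁ * s₂ = x := by
  haveI : Fact (Nat.Prime 2) := ⟨Nat.prime_two⟩
  have hcomm : ∀ u v : (Q : Subgroup C), u * v = v * u := by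
    intro u v
    apply Subtype.ext
    exact (Subgroup.mem_centralizer_iff.1 (hN (Subgroup.le_normalizer v.2)) u u.2)
  have key : ∀ a : C, a * a = 1 → ∃ s ∈ (Q : Subgroup C), IsConj a s ∧
      ((MonoidHom.transferSylow Q hN a : (Q : Subgroup C)) : C) = s := by
    intro a ha
    have ho : orderOf a ∣ 2 := orderOf_dvd_of_pow_eq_one (by rw [pow_two]; exact ha)
    obtain ⟨k, hk⟩ : ∃ k : ℕ, orderOf a = 2 ^ k := by
      rcases (Nat.dvd_prime Nat.prime_two).1 ho with h | h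
      · exact ⟨0, by simpa using h⟩
      · exact ⟨1, by simpa using h⟩
    obtain ⟨c, hc⟩ := exists_conj_mem_sylow Q a k hk
    refine ⟨c * a * c⁻¹, hc, isConj_iff.2 ⟨c, rfl⟩, ?_⟩
    have h1 : (c * a * c⁻¹) * (c * a * c⁻¹) = 1 := by
      calc (c * a * c⁻¹) * (c * a * c⁻¹) = c * (a * a) * c⁻¹ := by group
        _ = 1 := by rw [ha]; group
    rw [← transferSylow_of_sq Q hN hc h1, map_mul, map_mul, map_inv,
      hcomm (MonoidHom.transferSylow Q hN c), mul_inv_cancel_right]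
  obtain ⟨s₁, hs₁, hc₁, ht₁⟩ := key a ha
  obtain ⟨s₂, hs₂, hc₂, ht₂⟩ := key b hb
  refine ⟨s₁, hs₁, s₂, hs₂, hc₁, hc₂, ?_⟩
  have hy1 : MonoidHom.transferSylow Q hN y = 1 := by
    rw [← orderOf_eq_one_iff]
    have h1 : orderOf (MonoidHom.transferSylow Q hN y) ∣ orderOf y := orderOf_map_dvd _ y
    obtain ⟨k, hk⟩ := (IsPGroup.iff_orderOf.1 Q.2) (MonoidHom.transferSylow Q hN y)
    have h2 : (orderOf (MonoidHom.transferSylow Q hN y)).Coprime (orderOf y) := by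
      rw [hk]
      exact Nat.Coprime.pow_left k (Nat.coprime_two_left.2 hy)
    exact Nat.Coprime.eq_one_of_dvd h2 h1
  have h3 := congrArg (fun z => ((MonoidHom.transferSylow Q hN z : (Q : Subgroup C)) : C)) h
  simp only [map_mul, hy1, mul_one, Subgroup.coe_mul] at h3
  rw [ht₁, ht₂, transferSylow_of_sq Q hN hx hxx] at h3
  exact h3

end retraction

section pigeon

theorem exists_hom_trivial_on_orbit {A : Type*} [Group A] [Fintype A]
    (hc : ∀ a b : A, a * b = b * a) (S : Subgroup (MulAut A)) {t : A} (ht : t * t = 1)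
    (hcard : 2 ^ Nat.card S < Nat.card A) :
    ∃ ψ : A →* ℂˣ, ψ ≠ 1 ∧ ∀ σ ∈ S, ψ (σ t) = 1 := by
  classical
  have : Fintype S := Fintype.ofFinite _
  have : Fintype (A →* ℂˣ) := Fintype.ofFinite _
  obtain ⟨ψ₁, ψ₂, hne, he⟩ := Fintype.exists_ne_map_eq_of_card_lt
    (fun (ψ : A →* ℂˣ) (σ : S) => decide (ψ ((σ : MulAut A) t) = 1)) (by
      rw [Fintype.card_fun, Fintype.card_bool, card_hom hc, ← Nat.card_eq_fintype_card]
      exact hcard)
  have hpm : ∀ (ψ : A →* ℂˣ) (σ : MulAut A), ((ψ (σ t) : ℂˣ) : ℂ) = 1 ∨ ((ψ (σ t) : ℂˣ) : ℂ) = -1 := by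
    intro ψ σ
    apply mul_self_eq_one_iff.1
    rw [← Units.val_mul, ← map_mul, ← map_mul, ht, map_one, map_one, Units.val_one]
  have heq : ∀ σ ∈ S, ψ₁ (σ t) = ψ₂ (σ t) := by
    intro σ hσ
    have h1 := congrFun he ⟨σ, hσ⟩
    simp only [decide_eq_decide] at h1
    rcases hpm ψ₁ σ with h | h
    · have e1 : ψ₁ (σ t) = 1 := Units.ext h
      rw [e1, h1.1 e1]
    · rcases hpm ψ₂ σ with h' | h'
      · have e2 : ψ₂ (σ t) = 1 := Units.ext h'
        rw [e2, h1.2 e2]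
      · exact Units.ext (h.trans h'.symm)
  refine ⟨ψ₁ * ψ₂⁻¹, ?_, ?_⟩
  · intro h
    apply hne
    ext x
    have := DFunLike.congr_fun h x
    rw [MonoidHom.mul_apply, MonoidHom.inv_apply, MonoidHom.one_apply, mul_inv_eq_one] at this
    rw [this]
  · intro σ hσ
    rw [MonoidHom.mul_apply, MonoidHom.inv_apply, heq σ hσ, mul_inv_cancel]

theorem two_numbers {F₁ F₂ F₃ k₁ k₂ : ℤ} (h1 : F₁ = 1 + 16 * k₁) (h2 : F₂ = 1 + 16 * k₂)
    (hF : 1 + F₁ + F₂ + F₃ = 0)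
    (hE : F₁ * F₂ * F₃ + F₂ * F₃ + F₁ * F₃ + 9 * F₁ * F₂ = 0) : F₁ = 1 ∧ F₂ = 1 ∧ F₃ = -3 := by
  obtain ⟨k, hk⟩ : ∃ k, k = k₁ + k₂ := ⟨_, rfl⟩
  obtain ⟨q, hq⟩ : ∃ q, q = F₁ * F₂ := ⟨_, rfl⟩
  have hs : F₁ + F₂ = 2 + 16 * k := by rw [h1, h2, hk]; ring
  have hF3 : F₃ = -3 - 16 * k := by linarith
  have hd : (6 - 16 * k) * (q + 17 - (6 - 16 * k)) = 72 := by
    have : q * F₃ + (F₁ + F₂) * F₃ + 9 * q = 0 := by rw [hq]; linear_combination hE
    rw [hs, hF3] at this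
    linear_combination this
  have hdvd : (6 - 16 * k) ∣ 72 := ⟨_, hd.symm⟩
  have hb1 : 6 - 16 * k ≤ 72 := Int.le_of_dvd (by norm_num) hdvd
  have hb2 : -(6 - 16 * k) ≤ 72 := Int.le_of_dvd (by norm_num) ((neg_dvd).2 hdvd)
  have hk0 : k = 0 := by
    have l1 : -4 ≤ k := by omega
    have l2 : k ≤ 4 := by omega
    interval_cases k <;> first | rfl | (exfalso; revert hdvd; decide)
  rw [hk0] at hd hs hF3
  have hq1 : q = 1 := by linarith
  have hsq : (F₁ - 1) ^ 2 = 0 := by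
    have : F₂ = 2 - F₁ := by linarith
    rw [hq1, this] at hq
    nlinarith
  have hF1 : F₁ = 1 := by
    have := pow_eq_zero_iff (two_ne_zero) |>.1 hsq
    linarith
  refine ⟨hF1, by linarith, by linarith⟩

end pigeon

section hN

variable {G : Type*} [Group G] [Finite G] {p : ℕ} [Fact p.Prime]
  (P : Sylow p G) (hab : IsMulCommutative P)
  (hfrob : ∀ y : G, y ∈ (P : Subgroup G) → y ≠ 1 →
    Subgroup.centralizer ({y} : Set G) ⊓ Subgroup.normalizer ((P : Subgroup G) : Set G) =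
      Subgroup.centralizer ((P : Subgroup G) : Set G))

include hfrob in
theorem ab_centralizer_hN {y : G} (hy : y ∈ (P : Subgroup G)) (hy1 : y ≠ 1)
    (hle : (P : Subgroup G) ≤ Subgroup.centralizer ({y} : Set G)) :
    Subgroup.normalizer ((P.subtype hle : Sylow p (Subgroup.centralizer ({y} : Set G))) :
      Set (Subgroup.centralizer ({y} : Set G))) ≤
      Subgroup.centralizer ((P.subtype hle : Sylow p (Subgroup.centralizer ({y} : Set G))) :
        Set (Subgroup.centralizer ({y} : Set G))) := by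
  intro g hg
  have hgN : (g : G) ∈ Subgroup.normalizer ((P : Subgroup G) : Set G) := by
    rw [Subgroup.mem_normalizer_iff]
    intro h
    constructor
    · intro hh
      have := (Subgroup.mem_normalizer_iff.1 hg ⟨h, hle hh⟩).1
        (by rw [Sylow.coe_subtype, Subgroup.mem_subgroupOf]; exact hh)
      rw [Sylow.coe_subtype, Subgroup.mem_subgroupOf] at this
      exact this
    · intro hh
      have hh' : h ∈ Subgroup.centralizer ({y} : Set G) := by
        have h1 := hle hh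
        have h2 := (Subgroup.centralizer ({y} : Set G)).mul_mem
          ((Subgroup.centralizer ({y} : Set G)).mul_mem
            ((Subgroup.centralizer ({y} : Set G)).inv_mem g.2) h1) g.2
        simpa [mul_assoc] using h2
      have := (Subgroup.mem_normalizer_iff.1 hg ⟨h, hh'⟩).2
        (by rw [Sylow.coe_subtype, Subgroup.mem_subgroupOf]; exact hh)
      rw [Sylow.coe_subtype, Subgroup.mem_subgroupOf] at this
      exact this
  have hgC : (g : G) ∈ Subgroup.centralizer ((P : Subgroup G) : Set G) := by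
    rw [← hfrob y hy hy1]
    exact ⟨g.2, hgN⟩
  rw [Subgroup.mem_centralizer_iff]
  intro h hh
  have hh' : (h : G) ∈ (P : Subgroup G) := by
    have : h ∈ ((P.subtype hle : Sylow p (Subgroup.centralizer ({y} : Set G))) :
      Subgroup (Subgroup.centralizer ({y} : Set G))) := hh
    rwa [Sylow.coe_subtype, Subgroup.mem_subgroupOf] at this
  apply Subtype.ext
  exact Subgroup.mem_centralizer_iff.1 hgC h hh'

end hN

section two

variable {G : Type*} [Group G] [Finite G] [Fact (Nat.Prime 2)]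
  (P : Sylow 2 G) (hab : IsMulCommutative P)
  (hfrob : ∀ y : G, y ∈ (P : Subgroup G) → y ≠ 1 →
    Subgroup.centralizer ({y} : Set G) ⊓ Subgroup.normalizer ((P : Subgroup G) : Set G) =
      Subgroup.centralizer ((P : Subgroup G) : Set G))

include hab hfrob in
/-- the `2`-part of a product of two conjugates of an involution `t ∈ P` is, if it is conjugate to
a non-identity element `x` of `P`, a product of two `N(P)`-conjugates of `t` -/
theorem ab_two_prod (hodd : Odd (Nat.card (autS P))) {t : G} (htP : t ∈ (P : Subgroup G))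
    (ht : t * t = 1) (h gp : G) (hg : IsPPart 2 (t * (h * t * h⁻¹)) gp) {x : G}
    (hx : x ∈ (P : Subgroup G)) (hx1 : x ≠ 1) (hconj : IsConj gp x) :
    ∃ n₁ ∈ Subgroup.normalizer ((P : Subgroup G) : Set G),
      ∃ n₂ ∈ Subgroup.normalizer ((P : Subgroup G) : Set G),
        x = (n₁ * t * n₁⁻¹) * (n₂ * t * n₂⁻¹) := by
  obtain ⟨v, hv⟩ : ∃ v, v = h * t * h⁻¹ := ⟨_, rfl⟩
  rw [← hv] at hg
  have hvv : v * v = 1 := by
    rw [hv]
    calc (h * t * h⁻¹) * (h * t * h⁻¹) = h * (t * t) * h⁻¹ := by group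
      _ = 1 := by rw [ht]; group
  obtain ⟨hi1, hi2⟩ := invol_inverts ht hvv
  have ht1 := pPart_inverted hg hi1
  have hv1 := pPart_inverted hg hi2
  obtain ⟨k, hk⟩ := isConj_iff.1 hconj
  have hconj_inv : ∀ u : G, u * gp * u⁻¹ = gp⁻¹ → (k * u * k⁻¹) * x * (k * u * k⁻¹)⁻¹ = x⁻¹ := by
    intro u hu
    rw [← hk]
    calc k * u * k⁻¹ * (k * gp * k⁻¹) * (k * u * k⁻¹)⁻¹ = k * (u * gp * u⁻¹) * k⁻¹ := by group
      _ = (k * gp * k⁻¹)⁻¹ := by rw [hu]; group
  have hxx : x * x = 1 := ab_real_sq P hab hfrob hodd hx (isConj_iff.2 ⟨_, hconj_inv t ht1⟩)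
  have hxinv : x⁻¹ = x := inv_eq_of_mul_eq_one_left hxx
  have hmemC : ∀ u : G, u * gp * u⁻¹ = gp⁻¹ →
      k * u * k⁻¹ ∈ Subgroup.centralizer ({x} : Set G) := by
    intro u hu
    rw [Subgroup.mem_centralizer_singleton_iff]
    have := hconj_inv u hu
    rw [hxinv, mul_inv_eq_iff_eq_mul] at this
    exact this
  have hg' := isPPart_conj hg k
  rw [hk] at hg'
  obtain ⟨y, hxy, hcomm, -, hyodd⟩ := hg'
  have hle := ab_le_centralizer_singleton P hab hx
  have hN := ab_centralizer_hN P hfrob hx hx1 hle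
  have hyC : y ∈ Subgroup.centralizer ({x} : Set G) := by
    rw [Subgroup.mem_centralizer_singleton_iff]
    exact hcomm.eq.symm
  have hsq : ∀ u : G, u * u = 1 → (k * u * k⁻¹) * (k * u * k⁻¹) = 1 := by
    intro u hu
    calc (k * u * k⁻¹) * (k * u * k⁻¹) = k * (u * u) * k⁻¹ := by group
      _ = 1 := by rw [hu]; group
  obtain ⟨s₁, hs₁, s₂, hs₂, hc₁, hc₂, hprod⟩ := exists_prod_of_invol (P.subtype hle) hN
    (a := ⟨k * t * k⁻¹, hmemC t ht1⟩) (b := ⟨k * v * k⁻¹, hmemC v hv1⟩) (x := ⟨x, hle hx⟩)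
    (y := ⟨y, hyC⟩) (Subtype.ext (hsq t ht)) (Subtype.ext (hsq v hvv))
    (by rw [Sylow.coe_subtype, Subgroup.mem_subgroupOf]; exact hx) (Subtype.ext hxx)
    (by
      rw [Subgroup.orderOf_mk, ← Nat.not_even_iff_odd, even_iff_two_dvd]
      exact hyodd)
    (Subtype.ext (by
      simp only [Subgroup.coe_mul]
      rw [hxy]
      group))
  rw [Sylow.coe_subtype, Subgroup.mem_subgroupOf] at hs₁ hs₂
  have hct : ∀ (u : G) (hu : u ∈ Subgroup.centralizer ({x} : Set G))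
      (s : Subgroup.centralizer ({x} : Set G)), IsConj t u → IsConj (⟨u, hu⟩ : Subgroup.centralizer ({x} : Set G)) s →
      IsConj t (s : G) := by
    intro u hu s h1 h2
    obtain ⟨c, hc⟩ := isConj_iff.1 h2
    refine h1.trans (isConj_iff.2 ⟨(c : G), ?_⟩)
    rw [← hc]
    rfl
  have hc₁' : IsConj t (s₁ : G) := hct _ _ s₁ (isConj_iff.2 ⟨k, rfl⟩) hc₁
  have hc₂' : IsConj t (s₂ : G) := hct _ _ s₂ (isConj_iff.2 ⟨k * h, by rw [hv]; group⟩) hc₂
  obtain ⟨n₁, hn₁, hn₁'⟩ := ab_fusion P hab htP hs₁ hc₁'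
  obtain ⟨n₂, hn₂, hn₂'⟩ := ab_fusion P hab htP hs₂ hc₂'
  refine ⟨n₁, hn₁, n₂, hn₂, ?_⟩
  rw [hn₁', hn₂']
  exact (congrArg Subtype.val hprod).symm

end two

section congr

variable {G : Type*} [Group G] [Finite G] {p : ℕ} [Fact p.Prime] {M : Ideal Cfsg.AlgInt}
  (hM : Cfsg.IsPModular p M) (P : Sylow p G) (hab : IsMulCommutative P)
  (hfrob : ∀ y : G, y ∈ (P : Subgroup G) → y ≠ 1 →
    Subgroup.centralizer ({y} : Set G) ⊓ Subgroup.normalizer ((P : Subgroup G) : Set G) =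
      Subgroup.centralizer ((P : Subgroup G) : Set G))
  [Fintype ↥(P : Subgroup G)] [Fintype (↥(P : Subgroup G) →* ℂˣ)] [DecidableEq (IrrCharacter G)]
  {ε : ℤ} {w : IrrCharacter G → ℤ} {θ : (↥(P : Subgroup G) →* ℂˣ) → IrrCharacter G} {c : ℤ}
  (D : SemiregData (autS P) (resX M P) ε w θ c)

include hM hab hfrob D in
theorem ab_degree_congr {χ : IrrCharacter G} (hχ : χ ∈ principalBlock M G) (hY : χ ∉ Yf θ) :
    ∃ n : ℤ, (charDegree (χ : G → ℂ) : ℤ) + w χ = (Nat.card ↥(P : Subgroup G) : ℤ) * n := by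
  classical
  have hres : IsCharacter ↥(P : Subgroup G) (fun x : ↥(P : Subgroup G) => (χ : G → ℂ) x) :=
    Helper15.char_restrict (IrrCharacter.isCharacter χ) _
  obtain ⟨a, ha⟩ := Helper15.inner_nat hres
    (IsIrrCharacter.isCharacter (isIrrCharacter_one (G := ↥(P : Subgroup G))))
  unfold classInner at ha
  have hsum : ∑ x : ↥(P : Subgroup G), (χ : G → ℂ) x * (starRingEnd ℂ) 1 =
      (charDegree (χ : G → ℂ) : ℂ) + ((Nat.card ↥(P : Subgroup G) : ℂ) - 1) * (-(w χ : ℂ)) := by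
    rw [← Finset.add_sum_erase _ _ (Finset.mem_univ (1 : ↥(P : Subgroup G)))]
    congr 1
    · rw [map_one, mul_one, Subgroup.coe_one, irr_one_eq]
    · rw [Finset.sum_congr rfl (g := fun _ => -(w χ : ℂ)), Finset.sum_const,
        Finset.card_erase_of_mem (Finset.mem_univ _), Finset.card_univ, nsmul_eq_mul,
        Nat.card_eq_fintype_card, Nat.cast_sub Fintype.card_pos, Nat.cast_one]
      intro x hx
      have hx1 : (x : G) ≠ 1 := fun h => (Finset.ne_of_mem_erase hx) (Subtype.ext h)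
      rw [map_one, mul_one]
      exact ab_value_X hM P hab hfrob D hχ hY (isPPart_self (exists_orderOf_eq_pow P x.2)) x.2 hx1
  rw [hsum] at ha
  have hn := card_ne_zero' (A := ↥(P : Subgroup G))
  refine ⟨a + w χ, ?_⟩
  have h2 : (((charDegree (χ : G → ℂ) : ℤ) + w χ : ℤ) : ℂ) =
      (((Nat.card ↥(P : Subgroup G) : ℤ) * (a + w χ) : ℤ) : ℂ) := by
    push_cast
    field_simp at ha
    linear_combination ha
  exact_mod_cast h2

end congr

section two2

variable {G : Type*} [Group G] [Finite G] [Fact (Nat.Prime 2)] {M : Ideal Cfsg.AlgInt}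
  (hM : Cfsg.IsPModular 2 M) (P : Sylow 2 G) (hab : IsMulCommutative P)
  (hfrob : ∀ y : G, y ∈ (P : Subgroup G) → y ≠ 1 →
    Subgroup.centralizer ({y} : Set G) ⊓ Subgroup.normalizer ((P : Subgroup G) : Set G) =
      Subgroup.centralizer ((P : Subgroup G) : Set G))
  [Fintype ↥(P : Subgroup G)] [Fintype (↥(P : Subgroup G) →* ℂˣ)] [DecidableEq (IrrCharacter G)]
  (hm : Nat.card (autS P) + 1 < Nat.card ↥(P : Subgroup G)) (h3 : Nat.card (autS P) = 3)
  {ε : ℤ} {w : IrrCharacter G → ℤ} {θ : (↥(P : Subgroup G) →* ℂˣ) → IrrCharacter G}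
  {χ₁ χ₂ : IrrCharacter G} (T : AB3 M P ε w θ χ₁ χ₂)

include hM hab hfrob hm h3 T in
theorem AB3.two : charDegree (χ₁ : G → ℂ) = 1 ∧ charDegree (χ₂ : G → ℂ) = 1 ∧ w χ₁ = -1 ∧
    w χ₂ = -1 ∧ ε = 1 ∧ ∀ ψ : ↥(P : Subgroup G) →* ℂˣ, ψ ≠ 1 → charDegree (θ ψ : G → ℂ) = 3 := by
  classical
  have hc := ab_hc P hab
  have hS := autS_semireg P hfrob
  have hodd : Odd (Nat.card (autS P)) := by rw [h3]; decide
  -- the order of `P`
  obtain ⟨k, hk⟩ := IsPGroup.iff_card.1 P.2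
  have hk' : Nat.card ↥(P : Subgroup G) = 2 ^ k := hk
  have hrm := T.D.card_Yf hc hS
  rw [h3] at hrm hm
  have hk4 : 4 ≤ k := by
    by_contra hlt
    have : k ≤ 3 := by omega
    rw [hk'] at hrm hm
    interval_cases k <;> omega
  obtain ⟨u, hu⟩ : ∃ u : ℕ, Nat.card ↥(P : Subgroup G) = 16 * u := by
    refine ⟨2 ^ (k - 4), ?_⟩
    rw [hk', show (16 : ℕ) = 2 ^ 4 by norm_num, ← pow_add]
    congr 1
    omega
  -- an involution
  obtain ⟨t, ht⟩ := exists_prime_orderOf_dvd_card' (G := ↥(P : Subgroup G)) 2 (by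
    rw [hk']; exact dvd_pow_self 2 (by omega))
  have htt : t * t = 1 := by
    have := pow_orderOf_eq_one t
    rwa [ht, pow_two] at this
  have ht1 : t ≠ 1 := by
    rintro rfl
    rw [orderOf_one] at ht
    omega
  have htt' : (t : G) * (t : G) = 1 := congrArg Subtype.val htt
  have ht1' : (t : G) ≠ 1 := fun h => ht1 (Subtype.ext h)
  obtain ⟨ψ, hψ, hψt⟩ := exists_hom_trivial_on_orbit hc (autS P) htt (by rw [h3]; omega)
  -- the class multiplication identity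
  have hCM := ab_class_mult hM P hab hfrob ψ (t : G) (by
    intro h gp hg x hx hconj
    have hx1 : x ≠ 1 := by
      rintro rfl
      exact hx (map_one ψ)
    have hx1' : (x : G)⁻¹ ≠ 1 := fun h => hx1 (Subtype.ext (inv_eq_one.1 h))
    obtain ⟨n₁, hn₁, n₂, hn₂, hprod⟩ := ab_two_prod P hab hfrob hodd t.2 htt' h gp hg
      ((P : Subgroup G).inv_mem x.2) hx1' hconj
    apply hx
    have e : x⁻¹ = ((P : Subgroup G).normalizerMonoidHom ⟨n₁, hn₁⟩ t) *
        ((P : Subgroup G).normalizerMonoidHom ⟨n₂, hn₂⟩ t) := Subtype.ext hprod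
    have h1 : ψ x⁻¹ = 1 := by
      rw [e, map_mul, hψt _ ⟨_, rfl⟩, hψt _ ⟨_, rfl⟩, one_mul]
    rwa [map_inv, inv_eq_one] at h1)
  rw [T.expand P _ hψ] at hCM
  have hreg := sum_bcoef_mul (resX M P) (fun χ => (χ : G → ℂ) 1) (resX_reg hM P not_dvd_orderOf_one)
  have hE1 : ∀ ψ : ↥(P : Subgroup G) →* ℂˣ, ψ ≠ 1 →
      -1 + w χ₁ * (charDegree (χ₁ : G → ℂ) : ℤ) + w χ₂ * (charDegree (χ₂ : G → ℂ) : ℤ) +
        ε * (charDegree (θ ψ : G → ℂ) : ℤ) = 0 := by
    intro ψ hψ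
    have h := hreg ψ
    rw [T.expand P _ hψ] at h
    simp only [irr_one_eq] at h
    have h1 : (charDegree ((trivIrr G : IrrCharacter G) : G → ℂ) : ℂ) = 1 := by
      rw [← irr_one_eq]; rfl
    rw [h1] at h
    exact_mod_cast h
  -- the values at `t`
  have hpp := isPPart_self (p := 2) (exists_orderOf_eq_pow P t.2)
  have hv1 := ab_value_X hM P hab hfrob T.D (T.mem1 P hab hfrob (by omega)) (T.nY1 P) hpp t.2 ht1'
  have hv2 := ab_value_X hM P hab hfrob T.D (T.mem2 P hab hfrob (by omega)) (T.nY2 P) hpp t.2 ht1'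
  have hv3 : (θ ψ : G → ℂ) (t : G) = 3 * ε := by
    have hmem : θ ψ ∈ principalBlock M G :=
      ab_Y_subset P hab hfrob (by omega) T.D (mem_Yf.2 ⟨ψ, hψ, rfl⟩)
    have := T.D.value_theta hc hψ ht1
    rw [resX_of_mem P hmem] at this
    rw [this, Finset.sum_congr rfl (g := fun _ => (1 : ℂ)), Finset.sum_const,
      card_orb hc (autS P) hS hψ, h3]
    · push_cast; ring
    · intro ψ' hψ'
      obtain ⟨σ, hσ, hσ'⟩ := (Finset.mem_filter.1 hψ').2
      have e : ψ' t = ψ (σ⁻¹ t) := by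
        rw [← hσ']
        congr 1
        exact (σ.apply_symm_apply t).symm
      rw [e, hψt _ ((autS P).inv_mem hσ), Units.val_one]
  have ht0 : ((trivIrr G : IrrCharacter G) : G → ℂ) (t : G) = 1 := rfl
  have ht0' : ((trivIrr G : IrrCharacter G) : G → ℂ) 1 = 1 := rfl
  simp only [hv1, hv2, hv3, ht0, ht0', irr_one_eq] at hCM
  obtain ⟨f₁, hf₁⟩ : ∃ f : ℕ, f = charDegree (χ₁ : G → ℂ) := ⟨_, rfl⟩
  obtain ⟨f₂, hf₂⟩ : ∃ f : ℕ, f = charDegree (χ₂ : G → ℂ) := ⟨_, rfl⟩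
  obtain ⟨f₃, hf₃⟩ : ∃ f : ℕ, f = charDegree (θ ψ : G → ℂ) := ⟨_, rfl⟩
  have hp1 : 0 < f₁ := hf₁ ▸ irr_charDegree_pos χ₁
  have hp2 : 0 < f₂ := hf₂ ▸ irr_charDegree_pos χ₂
  have hp3 : 0 < f₃ := hf₃ ▸ irr_charDegree_pos (θ ψ)
  obtain ⟨n₁, hn₁⟩ := ab_degree_congr hM P hab hfrob T.D (T.mem1 P hab hfrob (by omega)) (T.nY1 P)
  obtain ⟨n₂, hn₂⟩ := ab_degree_congr hM P hab hfrob T.D (T.mem2 P hab hfrob (by omega)) (T.nY2 P)
  have hE1ψ := hE1 ψ hψ
  rw [← hf₁, ← hf₂, ← hf₃] at hCM hE1ψ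
  rw [← hf₁] at hn₁
  rw [← hf₂] at hn₂
  rw [hu] at hn₁ hn₂
  have hw1sq : w χ₁ * w χ₁ = 1 := by rcases T.w1 with h | h <;> rw [h] <;> norm_num
  have hw2sq : w χ₂ * w χ₂ = 1 := by rcases T.w2 with h | h <;> rw [h] <;> norm_num
  have hεsq : ε * ε = 1 := by rcases T.D.hε with h | h <;> rw [h] <;> norm_num
  have hCM' : -((f₁ : ℤ) * f₂ * f₃) + w χ₁ * f₂ * f₃ + w χ₂ * f₁ * f₃ + 9 * ε * f₁ * f₂ = 0 := by
    have h1 : (f₁ : ℂ) ≠ 0 := by exact_mod_cast hp1.ne'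
    have h2 : (f₂ : ℂ) ≠ 0 := by exact_mod_cast hp2.ne'
    have h3' : (f₃ : ℂ) ≠ 0 := by exact_mod_cast hp3.ne'
    have hw1c : (w χ₁ : ℂ) * w χ₁ = 1 := by exact_mod_cast hw1sq
    have hw2c : (w χ₂ : ℂ) * w χ₂ = 1 := by exact_mod_cast hw2sq
    have hεc : (ε : ℂ) * ε = 1 := by exact_mod_cast hεsq
    have : (-((f₁ : ℂ) * f₂ * f₃) + w χ₁ * f₂ * f₃ + w χ₂ * f₁ * f₃ + 9 * ε * f₁ * f₂ : ℂ) = 0 := by
      field_simp at hCM
      linear_combination hCM + (- (w χ₁ : ℂ) * f₂ * f₃) * hw1c + (- (w χ₂ : ℂ) * f₁ * f₃) * hw2c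
        + (- 9 * (ε : ℂ) * f₁ * f₂) * hεc
    exact_mod_cast this
  obtain ⟨hF1, hF2, hF3⟩ := two_numbers (F₁ := -(w χ₁) * f₁) (F₂ := -(w χ₂) * f₂) (F₃ := -ε * f₃)
    (k₁ := -(w χ₁) * u * n₁) (k₂ := -(w χ₂) * u * n₂)
    (by
      have : (f₁ : ℤ) = ((16 * u : ℕ) : ℤ) * n₁ - w χ₁ := by linarith
      rw [this]; push_cast
      linear_combination hw1sq)
    (by
      have : (f₂ : ℤ) = ((16 * u : ℕ) : ℤ) * n₂ - w χ₂ := by linarith
      rw [this]; push_cast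
      linear_combination hw2sq)
    (by linear_combination -hE1ψ)
    (by
      linear_combination (w χ₁ * w χ₂ * ε) * hCM' + (- w χ₂ * ε * f₂ * f₃) * hw1sq
        + (- w χ₁ * ε * f₁ * f₃) * hw2sq + (- 9 * w χ₁ * w χ₂ * f₁ * f₂) * hεsq)
  have r1 : w χ₁ = -1 ∧ f₁ = 1 := by
    rcases T.w1 with h | h <;> rw [h] at hF1 <;> constructor <;> omega
  have r2 : w χ₂ = -1 ∧ f₂ = 1 := by
    rcases T.w2 with h | h <;> rw [h] at hF2 <;> constructor <;> omega
  have r3 : ε = 1 := by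
    rcases T.D.hε with h | h
    · exact h
    · rw [h] at hF3; omega
  refine ⟨hf₁ ▸ r1.2, hf₂ ▸ r2.2, r1.1, r2.1, r3, ?_⟩
  intro ψ' hψ'
  have := hE1 ψ' hψ'
  rw [← hf₁, ← hf₂, r1.1, r1.2, r2.1, r2.2, r3] at this
  omega

end two2

end Cfsg.Agent.Lib.Helper74
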