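import Mathlib
import Cfsg.Agent.Lib.Helper74.AbSylowTwo
import Cfsg.Agent.Lib.Helper74.AbSylowOdd

/-!
# Abelian Sylow `2`-subgroups of order at least 16 with semiregular `N(P)/C(P)` of order 3
are normal modulo the core
-/

set_option autoImplicit false
set_option linter.unusedSectionVars false

namespace Cfsg.Agent.Lib.Helper74

open Cfsg Cfsg.Agent.Lib.Helper78
open scoped ComplexConjugate

section ker

variable {G : Type*} [Group G] [Finite G] {p : ℕ} [Fact p.Prime] {M : Ideal Cfsg.AlgInt}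
  (hM : Cfsg.IsPModular p M)

/-- the intersection of the kernels of the characters in the principal block -/
noncomputable def principalKer (M : Ideal Cfsg.AlgInt) (G : Type*) [Group G] [Finite G] : Subgroup G :=
  ⨅ χ : ↥(principalBlock M G), Helper80.charKer (χ.1 : G → ℂ) (IrrCharacter.isCharacter χ.1)

theorem mem_principalKer {g : G} : g ∈ principalKer M G ↔
    ∀ χ ∈ principalBlock M G, (χ : G → ℂ) g = (χ : G → ℂ) 1 := by
  unfold principalKer
  rw [Subgroup.mem_iInf]
  constructor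
  · intro h χ hχ
    exact h ⟨χ, hχ⟩
  · intro h χ
    exact h χ.1 χ.2

theorem principalKer_normal : (principalKer M G).Normal :=
  Subgroup.normal_iInf_normal (fun _ => Helper80.charKer_normal _)

include hM in
theorem not_dvd_card_principalKer : ¬ p ∣ Nat.card (principalKer M G) := by
  classical
  intro hdvd
  have : Fintype G := Fintype.ofFinite G
  obtain ⟨x, hx⟩ := exists_prime_orderOf_dvd_card' (G := ↥(principalKer M G)) p hdvd
  have hx' : orderOf (x : G) = p := by rw [Subgroup.orderOf_coe]; exact hx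
  have h := weak_block_orthogonality hM (isPBlock_principalBlock (M := M) (G := G)) 1 (x : G)
    not_dvd_orderOf_one (by rw [hx'])
  rw [finsum_mem_irr] at h
  have h2 : ∀ χ : IrrCharacter G, (if χ ∈ principalBlock M G then
      (χ : G → ℂ) 1 * conj ((χ : G → ℂ) (x : G)) else 0) =
      (((if χ ∈ principalBlock M G then charDegree (χ : G → ℂ) ^ 2 else 0 : ℕ)) : ℂ) := by
    intro χ
    split_ifs with hχ
    · rw [mem_principalKer.1 x.2 χ hχ, irr_one_eq, Complex.conj_natCast]
      push_cast; ring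
    · simp
  simp_rw [h2] at h
  have h3 : ∑ χ : IrrCharacter G,
      (if χ ∈ principalBlock M G then charDegree (χ : G → ℂ) ^ 2 else 0 : ℕ) = 0 := by
    exact_mod_cast h
  have h4 := (Finset.sum_eq_zero_iff.1 h3) (trivIrr G) (Finset.mem_univ _)
  rw [if_pos (trivIrr_mem_principalBlock (pmod_isPrime hM))] at h4
  have := irr_charDegree_pos (trivIrr G)
  have h5 : 0 < charDegree ((trivIrr G : IrrCharacter G) : G → ℂ) ^ 2 := by positivity
  omega

end ker

section structure2

variable {G : Type*} [Group G] [Finite G] [Fact (Nat.Prime 2)] {M : Ideal Cfsg.AlgInt}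
  (hM : Cfsg.IsPModular 2 M) (P : Sylow 2 G) (hab : IsMulCommutative P)
  (hfrob : ∀ y : G, y ∈ (P : Subgroup G) → y ≠ 1 →
    Subgroup.centralizer ({y} : Set G) ⊓ Subgroup.normalizer ((P : Subgroup G) : Set G) =
      Subgroup.centralizer ((P : Subgroup G) : Set G))
  [Fintype ↥(P : Subgroup G)] [Fintype (↥(P : Subgroup G) →* ℂˣ)] [DecidableEq (IrrCharacter G)]
  (hm : Nat.card (autS P) + 1 < Nat.card ↥(P : Subgroup G)) (h3 : Nat.card (autS P) = 3)
  {ε : ℤ} {w : IrrCharacter G → ℤ} {θ : (↥(P : Subgroup G) →* ℂˣ) → IrrCharacter G}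
  {χ₁ χ₂ : IrrCharacter G} (T : AB3 M P ε w θ χ₁ χ₂)

include hM hab hfrob hm h3 T in
theorem AB3.two_structure (hO : ∀ N : Subgroup G, N.Normal → Odd (Nat.card N) → N = ⊥) :
    (P : Subgroup G).Normal ∧
      Subgroup.centralizer ((P : Subgroup G) : Set G) = (P : Subgroup G) := by
  classical
  obtain ⟨hf1, hf2, hw1, hw2, hε, hf3⟩ := T.two hM P hab hfrob hm h3
  have hK : principalKer M G = ⊥ := by
    apply hO _ principalKer_normal
    rw [← Nat.not_even_iff_odd, even_iff_two_dvd]
    exact not_dvd_card_principalKer hM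
  have h11 : (χ₁ : G → ℂ) 1 = 1 := by rw [irr_one_eq, hf1]; simp
  have h21 : (χ₂ : G → ℂ) 1 = 1 := by rw [irr_one_eq, hf2]; simp
  -- step 1
  have step1 : ∀ g : G, ¬ 2 ∣ orderOf g → (χ₁ : G → ℂ) g = 1 → (χ₂ : G → ℂ) g = 1 → g = 1 := by
    intro g hg h1 h2
    have hmem : g ∈ principalKer M G := by
      rw [mem_principalKer]
      intro χ hχ
      by_cases hY : χ ∈ Yf θ
      · obtain ⟨ψ, hψ, rfl⟩ := mem_Yf.1 hY
        have hrel := sum_bcoef_mul (resX M P) (fun χ => (χ : G → ℂ) g) (resX_reg hM P hg) ψ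
        rw [T.expand P _ hψ, h1, h2, hw1, hw2, hε] at hrel
        have ht0 : ((trivIrr G : IrrCharacter G) : G → ℂ) g = 1 := rfl
        rw [ht0] at hrel
        rw [irr_one_eq, hf3 ψ hψ]
        push_cast at hrel ⊢
        linear_combination hrel
      · have hX : χ ∈ principalBlock M G \ (↑(Yf θ) : Set (IrrCharacter G)) := ⟨hχ, hY⟩
        rw [T.X_eq hM P hab hfrob hm] at hX
        rcases hX with rfl | rfl | rfl
        · rfl
        · rw [h1, h11]
        · rw [h2, h21]
    rw [hK] at hmem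
    exact Subgroup.mem_bot.1 hmem
  -- values on `P`
  have hval : ∀ z y : G, IsPPart 2 z y → y ∈ (P : Subgroup G) → y ≠ 1 →
      (χ₁ : G → ℂ) z = 1 ∧ (χ₂ : G → ℂ) z = 1 := by
    intro z y hz hy hy1
    constructor
    · rw [ab_value_X hM P hab hfrob T.D (T.mem1 P hab hfrob hm) (T.nY1 P) hz hy hy1, hw1]
      push_cast; ring
    · rw [ab_value_X hM P hab hfrob T.D (T.mem2 P hab hfrob hm) (T.nY2 P) hz hy hy1, hw2]
      push_cast; ring
  -- a subgroup containing `P` in which all elements of odd order are trivial equals `P`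
  have hmax : ∀ H : Subgroup G, (P : Subgroup G) ≤ H →
      (∀ y ∈ H, ¬ 2 ∣ orderOf y → y = 1) → H = (P : Subgroup G) := by
    intro H hPH hH
    apply P.is_maximal' _ hPH
    obtain ⟨c, a, hc, hca⟩ := Cfsg.Agent.Lib.Helper4.exists_pPartExp G 2
    intro g
    refine ⟨a, Subtype.ext ?_⟩
    obtain ⟨y, hy1, hy2, hy3, hy4⟩ := (hc (g : G) ((g : G) ^ c)).2 rfl
    have hyH : y ∈ H := by
      have : y = ((g : G) ^ c)⁻¹ * (g : G) := eq_inv_mul_of_mul_eq hy1
      rw [this]
      exact H.mul_mem (H.inv_mem (H.pow_mem g.2 c)) g.2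
    have hy0 := hH y hyH hy4
    rw [hy0, mul_one] at hy1
    simp only [SubmonoidClass.coe_pow, OneMemClass.coe_one]
    rw [← hy1]
    exact hca (g : G)
  have hG0 : Helper80.charKer (χ₁ : G → ℂ) (IrrCharacter.isCharacter χ₁) ⊓
      Helper80.charKer (χ₂ : G → ℂ) (IrrCharacter.isCharacter χ₂) = (P : Subgroup G) := by
    apply hmax
    · intro y hy
      by_cases hy1 : y = 1
      · rw [hy1]; exact Subgroup.one_mem _
      · obtain ⟨e1, e2⟩ := hval y y (isPPart_self (exists_orderOf_eq_pow P hy)) hy hy1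
        exact Subgroup.mem_inf.2 ⟨by rw [Helper80.mem_charKer, e1, h11],
          by rw [Helper80.mem_charKer, e2, h21]⟩
    · intro y hy hodd
      obtain ⟨e1, e2⟩ := Subgroup.mem_inf.1 hy
      rw [Helper80.mem_charKer, h11] at e1
      rw [Helper80.mem_charKer, h21] at e2
      exact step1 y hodd e1 e2
  constructor
  · rw [← hG0]
    haveI := Helper80.charKer_normal (IrrCharacter.isCharacter χ₁)
    haveI := Helper80.charKer_normal (IrrCharacter.isCharacter χ₂)
    exact Subgroup.normal_inf_normal _ _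
  · apply hmax _ (ab_le_centralizer P hab)
    intro y hy hodd
    obtain ⟨y₀, hy₀⟩ := ab_exists_ne_one P hm
    have hy₀1 : (y₀ : G) ≠ 1 := fun h => hy₀ (Subtype.ext h)
    have hcomm : Commute (y₀ : G) y := (Subgroup.mem_centralizer_iff.1 hy y₀ y₀.2)
    obtain ⟨e1, e2⟩ := hval ((y₀ : G) * y) y₀
      ⟨y, rfl, hcomm, exists_orderOf_eq_pow P y₀.2, hodd⟩ y₀.2 hy₀1
    obtain ⟨e1', e2'⟩ := hval y₀ y₀ (isPPart_self (exists_orderOf_eq_pow P y₀.2)) y₀.2 hy₀1
    rw [Helper80.char_mul_of_degree_one (IrrCharacter.isCharacter χ₁) h11, e1', one_mul] at e1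
    rw [Helper80.char_mul_of_degree_one (IrrCharacter.isCharacter χ₂) h21, e2', one_mul] at e2
    exact step1 y hodd e1 e2

end structure2

end Cfsg.Agent.Lib.Helper74
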