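import Mathlib
import Cfsg.Agent.Lib.Helper74.BlockCenter
import Cfsg.Agent.Lib.Helper3.Table

/-!
# The centre of a block algebra has dimension `k(B)` (helper74)
-/

set_option autoImplicit false
set_option linter.unusedSectionVars false

namespace Cfsg.Agent.Lib.Helper74.BlockCenterG

open Module MonoidAlgebra Cfsg Cfsg.Agent.Lib.Helper77 Cfsg.Agent.Lib.Helper78
open Cfsg.Agent.Lib.Helper74.BlockAlg Cfsg.Agent.Lib.Helper74.BlockDim
open Cfsg.Agent.Lib.Helper74.BlockCenter
open scoped ComplexConjugate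

universe u

section nak

variable {G : Type u} [Group G] [Fintype G] (M : Ideal AlgInt) [hP : M.IsPrime]

/-- **Nakayama**, general form. -/
theorem nak {N' : Submodule (Rloc M) (MonoidAlgebra (Rloc M) G)} (hfg : N'.FG)
    (hK : ∀ z ∈ N', piF M z = 0 → z ∈ mloc M • N') :
    finrank ℂ (Submodule.span ℂ ((iC M : _ → MonoidAlgebra ℂ G) '' (N' : Set _)))
      ≤ finrank (ResF M) (Submodule.span (ResF M) ((piF M : _ → MonoidAlgebra (ResF M) G) '' (N' : Set _))) := by
  classical
  set WF := Submodule.span (ResF M) ((piF M : _ → MonoidAlgebra (ResF M) G) '' (N' : Set _)) with hWF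
  have hmem : ∀ w ∈ WF, ∃ z ∈ N', piF M z = w := by
    intro w hw
    induction hw using Submodule.span_induction with
    | mem w hw => obtain ⟨z, hz, rfl⟩ := hw; exact ⟨z, hz, rfl⟩
    | zero => exact ⟨0, N'.zero_mem, map_zero _⟩
    | add a b _ _ ha hb =>
      obtain ⟨z1, h1, rfl⟩ := ha
      obtain ⟨z2, h2, rfl⟩ := hb
      exact ⟨z1 + z2, N'.add_mem h1 h2, map_add _ _ _⟩
    | smul c a _ ha =>
      obtain ⟨z1, h1, rfl⟩ := ha
      obtain ⟨c', rfl⟩ := resMap_surjective M c
      exact ⟨c' • z1, N'.smul_mem _ h1, piF_smul M _ _⟩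
  set r := finrank (ResF M) WF with hr
  let b : Basis (Fin r) (ResF M) WF := Module.finBasis (ResF M) WF
  have hb : ∀ i, ∃ x ∈ N', piF M x = (b i : MonoidAlgebra _ G) := fun i => hmem _ (b i).2
  choose x hxN hx using hb
  set N'' : Submodule (Rloc M) (MonoidAlgebra (Rloc M) G) := Submodule.span (Rloc M) (Set.range x)
    with hN''
  have hle : N' ≤ N'' ⊔ mloc M • N' := by
    intro y hy
    have h1 : piF M y ∈ WF := Submodule.subset_span ⟨y, hy, rfl⟩
    have h2 := b.sum_repr ⟨_, h1⟩
    have h3 : ∑ i, b.repr ⟨_, h1⟩ i • (b i : MonoidAlgebra (ResF M) G) = piF M y := by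
      have h := congrArg Subtype.val h2
      rw [AddSubmonoidClass.coe_finsetSum] at h
      exact h
    let c : Fin r → Rloc M := fun i => Function.surjInv (resMap_surjective M) (b.repr ⟨_, h1⟩ i)
    have hc : ∀ i, resMap M (c i) = b.repr ⟨_, h1⟩ i := fun i =>
      Function.surjInv_eq (resMap_surjective M) _
    set z' := y - ∑ i, c i • x i with hz'
    have hz'N : z' ∈ N' :=
      N'.sub_mem hy (Submodule.sum_mem _ fun i _ => N'.smul_mem _ (hxN i))
    have hz'0 : piF M z' = 0 := by
      rw [hz', map_sub, map_sum, ← h3, sub_eq_zero]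
      exact Finset.sum_congr rfl fun i _ => by rw [piF_smul, hc, hx]
    have : y = ∑ i, c i • x i + z' := by rw [hz']; abel
    rw [this]
    refine Submodule.add_mem_sup ?_ (hK _ hz'N hz'0)
    exact Submodule.sum_mem _ fun i _ => Submodule.smul_mem _ _ (Submodule.subset_span ⟨i, rfl⟩)
  have hNN : N' ≤ N'' := Submodule.le_of_le_smul_of_le_jacobson_bot hfg (mloc_le_jacobson M) hle
  have hspan : ∀ z ∈ N'', iC M z ∈ Submodule.span ℂ (Set.range fun i => iC M (x i)) := by
    intro z hz
    induction hz using Submodule.span_induction with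
    | mem z hz =>
      obtain ⟨i, rfl⟩ := hz
      exact Submodule.subset_span ⟨i, rfl⟩
    | zero => rw [map_zero]; exact Submodule.zero_mem _
    | add a b _ _ ha hb => rw [map_add]; exact Submodule.add_mem _ ha hb
    | smul c a _ ha => rw [iC_smul]; exact Submodule.smul_mem _ _ ha
  have hle2 : Submodule.span ℂ ((iC M : _ → MonoidAlgebra ℂ G) '' (N' : Set _))
      ≤ Submodule.span ℂ (Set.range fun i => iC M (x i)) := by
    rw [Submodule.span_le]
    rintro _ ⟨z, hz, rfl⟩
    exact hspan z (hNN hz)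
  calc _ ≤ finrank ℂ (Submodule.span ℂ (Set.range fun i => iC M (x i))) :=
        Submodule.finrank_mono hle2
    _ ≤ Fintype.card (Fin r) := finrank_range_le_card _
    _ = r := Fintype.card_fin r

end nak

section cs

variable {k : Type*} [CommRing k] {G : Type u} [Group G] [Fintype G]

/-- class function to central element -/
noncomputable def cs : (ConjClasses G → k) →ₗ[k] MonoidAlgebra k G where
  toFun f := ofFun fun g => f (ConjClasses.mk g)
  map_add' _ _ := ma_ext fun _ => rfl
  map_smul' _ _ := ma_ext fun _ => rfl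

theorem coeff_cs (f : ConjClasses G → k) (g : G) : (cs f).coeff g = f (ConjClasses.mk g) := rfl

theorem fixedBy_cs (f : ConjClasses G → k) : FixedBy ⊤ (cs f) := by
  rw [fixedBy_iff_coeff]
  intro u _ x
  rw [coeff_cs, coeff_cs]
  congr 1
  exact ConjClasses.mk_eq_mk_iff_isConj.2 (isConj_iff.2 ⟨u⁻¹, by group⟩)

theorem exists_cs {a : MonoidAlgebra k G} (ha : FixedBy ⊤ a) : ∃ f, cs f = a ∧
    ∀ C, ∃ g, f C = a.coeff g := by
  refine ⟨fun C => a.coeff C.out, ?_, fun C => ⟨_, rfl⟩⟩
  apply ma_ext
  intro g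
  rw [coeff_cs]
  have h1 : IsConj (ConjClasses.mk g).out g := by
    rw [← ConjClasses.mk_eq_mk_iff_isConj]
    exact Quotient.out_eq' _
  obtain ⟨t, ht⟩ := isConj_iff.1 h1
  have h2 := fixedBy_iff_coeff.1 ha t (Subgroup.mem_top t) (ConjClasses.mk g).out
  rw [ht] at h2
  exact h2.symm

theorem cs_injective : Function.Injective (cs : (ConjClasses G → k) → MonoidAlgebra k G) := by
  intro f g h
  ext C
  obtain ⟨x, rfl⟩ := ConjClasses.mk_surjective C
  have := congrArg (fun a => a.coeff x) h
  exact this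

end cs

section fieldZ

variable {k : Type*} [Field k] {G : Type u} [Group G] [Fintype G]

theorem zE_add {e : MonoidAlgebra k G} (he : e * e = e) (hc : ∀ x, e * x = x * e) :
    finrank k (zE e) + finrank k (zE (1 - e)) = Nat.card (ConjClasses G) := by
  classical
  have hsup : zE e ⊔ zE (1 - e) = LinearMap.range (cs : (ConjClasses G → k) →ₗ[k] _) := by
    apply le_antisymm
    · apply sup_le
      · intro x hx
        obtain ⟨f, hf, -⟩ := exists_cs (fixedBy_of_commute hx.1)
        exact ⟨f, hf⟩
      · intro x hx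
        obtain ⟨f, hf, -⟩ := exists_cs (fixedBy_of_commute hx.1)
        exact ⟨f, hf⟩
    · rintro _ ⟨f, rfl⟩
      have hcomm : ∀ r, cs f * r = r * cs f := (fixedBy_cs f).commute_top
      have h1 : cs f = cs f * e + cs f * (1 - e) := by rw [← mul_add]; simp
      rw [h1]
      refine Submodule.add_mem_sup ⟨fun r => ?_, by rw [mul_assoc, he]⟩ ⟨fun r => ?_, ?_⟩
      · rw [mul_assoc, hc r, ← mul_assoc, hcomm r, mul_assoc]
      · have hc' : (1 - e) * r = r * (1 - e) := by rw [sub_mul, mul_sub, hc r]; simp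
        rw [mul_assoc, hc', ← mul_assoc, hcomm r, mul_assoc]
      · have : (1 - e) * (1 - e) = 1 - e := by rw [mul_sub, sub_mul, sub_mul, he]; simp
        rw [mul_assoc, this]
  have hinf : zE e ⊓ zE (1 - e) = ⊥ := by
    rw [eq_bot_iff]
    rintro x ⟨h1, h2⟩
    have h3 : x * e = x := h1.2
    have h4 : x * (1 - e) = x := h2.2
    rw [mul_sub, mul_one, h3, sub_self] at h4
    exact h4.symm
  have h := Submodule.finrank_sup_add_finrank_inf_eq (zE e) (zE (1 - e))
  rw [hsup, hinf, finrank_bot, add_zero, LinearMap.finrank_range_of_inj cs_injective,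
    Module.finrank_pi, ← Nat.card_eq_fintype_card] at h
  exact h.symm

end fieldZ

section main

variable {G : Type u} [Group G] [Fintype G] (M : Ideal AlgInt) [hP : M.IsPrime]

/-- lower bound for the centre of `F[G] ē`, `e` a central idempotent of `R[G]` -/
theorem card_le_finrank_zE {e : MonoidAlgebra (Rloc M) G} (he : e * e = e) (hc : FixedBy ⊤ e)
    (S : Finset (IrrCharacter G)) (hS : ∀ χ ∈ S, omega (χ : G → ℂ) (cfun M e) = 1) :
    S.card ≤ finrank (ResF M) (zE (piF M e)) := by
  classical
  set L : (ConjClasses G → Rloc M) →ₗ[Rloc M] MonoidAlgebra (Rloc M) G :=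
    (LinearMap.mulRight (Rloc M) e) ∘ₗ cs with hL
  set N' := LinearMap.range L with hN'
  have hmemN : ∀ z : MonoidAlgebra (Rloc M) G, FixedBy ⊤ z → z * e = z → z ∈ N' := by
    intro z hz hze
    obtain ⟨f, hf, -⟩ := exists_cs hz
    exact ⟨f, by show cs f * e = z; rw [hf, hze]⟩
  have hN'prop : ∀ z ∈ N', FixedBy ⊤ z ∧ z * e = z := by
    rintro _ ⟨f, rfl⟩
    exact ⟨(fixedBy_cs f).mul hc, by show cs f * e * e = cs f * e; rw [mul_assoc, he]⟩
  have hfg : N'.FG := by
    rw [hN', LinearMap.range_eq_map]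
    exact Submodule.FG.map _ (Module.Finite.fg_top)
  have hK : ∀ z ∈ N', piF M z = 0 → z ∈ mloc M • N' := by
    intro z hz h0
    obtain ⟨hzf, hze⟩ := hN'prop z hz
    obtain ⟨f, hf, hfc⟩ := exists_cs hzf
    have h1 : f = ∑ C, f C • (Pi.single C (1 : Rloc M) : ConjClasses G → Rloc M) := by
      ext C
      simp [Finset.sum_apply, Pi.single_apply]
    have h2 : z = ∑ C, f C • L (Pi.single C 1) := by
      have : z = L f := by show z = cs f * e; rw [hf, hze]
      rw [this]
      conv_lhs => rw [h1]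
      rw [map_sum]
      exact Finset.sum_congr rfl fun C _ => map_smul _ _ _
    rw [h2]
    refine Submodule.sum_mem _ fun C _ => Submodule.smul_mem_smul ?_ ⟨_, rfl⟩
    obtain ⟨g, hg⟩ := hfc C
    rw [hg]
    exact (piF_eq_zero_iff M z).1 h0 g
  have hnak := nak M hfg hK
  have h1 : Submodule.span (ResF M) ((piF M : _ → MonoidAlgebra (ResF M) G) '' (N' : Set _))
      ≤ zE (piF M e) := by
    rw [Submodule.span_le]
    rintro _ ⟨z, hz, rfl⟩
    obtain ⟨hzf, hze⟩ := hN'prop z hz
    exact ⟨(hzf.piF M).commute_top, by rw [← map_mul, hze]⟩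
  have h2 : S.card ≤ finrank ℂ (Submodule.span ℂ ((iC M : _ → MonoidAlgebra ℂ G) '' (N' : Set _))) := by
    have hli : LinearIndependent ℂ (fun χ : S => iC M (yR M χ.1)) := by
      rw [Fintype.linearIndependent_iff]
      intro g hg ψ
      have h3 : ∀ x : G, ∑ χ : S, g χ * conj ((χ.1 : G → ℂ) x) = 0 := by
        intro x
        have := congrArg (fun a => a.coeff x) hg
        simp only [coeff_sum, coeff_smul, Finsupp.finsetSum_apply, Finsupp.smul_apply, coeff_iC,
          cfun_yR, smul_eq_mul] at this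
        exact this
      have h4 : omega (ψ.1 : G → ℂ) (∑ χ : S, g χ • (fun x => conj ((χ.1 : G → ℂ) x))) = 0 := by
        have : (∑ χ : S, g χ • (fun x => conj ((χ.1 : G → ℂ) x))) = 0 := by
          ext x
          simp only [Finset.sum_apply, Pi.smul_apply, smul_eq_mul, Pi.zero_apply]
          exact h3 x
        rw [this, omega_zero]
      rw [omega_sum] at h4
      simp_rw [omega_smul, omega_conj] at h4
      rw [Finset.sum_eq_single ψ] at h4
      · rw [if_pos rfl] at h4
        have hG : (Fintype.card G : ℂ) ≠ 0 := by exact_mod_cast Fintype.card_ne_zero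
        rcases mul_eq_zero.1 h4 with h | h
        · exact h
        · exact absurd h (div_ne_zero hG (irr_one_ne_zero ψ.1))
      · intro χ _ hχ
        rw [if_neg (fun h => hχ (Subtype.ext h.symm)), mul_zero]
      · simp
    have hsub : Submodule.span ℂ (Set.range fun χ : S => iC M (yR M χ.1))
        ≤ Submodule.span ℂ ((iC M : _ → MonoidAlgebra ℂ G) '' (N' : Set _)) := by
      apply Submodule.span_mono
      rintro _ ⟨χ, rfl⟩
      refine ⟨yR M χ.1, hmemN _ (fixedBy_yR M χ.1) ?_, rfl⟩
      apply eq_of_omega M ((fixedBy_yR M χ.1).mul hc) (fixedBy_yR M χ.1)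
      intro ψ
      rw [omega_cfun_mul M ψ _ hc, cfun_yR, omega_conj]
      by_cases h : ψ = χ.1
      · subst h
        rw [if_pos rfl, hS _ χ.2, mul_one]
      · rw [if_neg h, zero_mul]
    calc S.card = Fintype.card S := (Fintype.card_coe S).symm
      _ = finrank ℂ (Submodule.span ℂ (Set.range fun χ : S => iC M (yR M χ.1))) :=
          (finrank_span_eq_card hli).symm
      _ ≤ _ := Submodule.finrank_mono hsub
  exact h2.trans (hnak.trans (Submodule.finrank_mono h1))

/-- **`dim Z(F[G] ē_B) = k(B)`.** -/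
theorem finrank_zE_ebar {B : Set (IrrCharacter G)} (hB : IsPBlock M B) :
    finrank (ResF M) (zE (ebar M B)) = Nat.card B := by
  classical
  have he := eR_idem M hB
  have hc := fixedBy_eR M B
  have he' : (1 - eR M B) * (1 - eR M B) = 1 - eR M B := by
    rw [mul_sub, sub_mul, sub_mul, he]; simp
  have h1 := card_le_finrank_zE M he hc (Finset.univ.filter (· ∈ B)) (by
    intro χ hχ
    rw [omega_eR M hB, if_pos (Finset.mem_filter.1 hχ).2])
  have h2 := card_le_finrank_zE M he' ((fixedBy_one _).sub hc) (Finset.univ.filter (· ∉ B)) (by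
    intro χ hχ
    rw [cfun_sub, omega_sub, omega_cfun_one, omega_eR M hB, if_neg (Finset.mem_filter.1 hχ).2,
      sub_zero])
  rw [map_sub, map_one, piF_eR] at h2
  rw [piF_eR] at h1
  have h3 := zE_add (ebar_idem M hB) (fixedBy_ebar M B).commute_top
  rw [← Cfsg.Agent.Lib.Helper3.card_irrCharacter, Nat.card_eq_fintype_card] at h3
  have h4 : (Finset.univ.filter (fun χ : IrrCharacter G => χ ∈ B)).card
      + (Finset.univ.filter (fun χ : IrrCharacter G => χ ∉ B)).card
      = Fintype.card (IrrCharacter G) := by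
    rw [Finset.card_filter_add_card_filter_not, Finset.card_univ]
  have h5 : Nat.card B = (Finset.univ.filter (fun χ : IrrCharacter G => χ ∈ B)).card := by
    rw [Nat.card_eq_fintype_card, Fintype.card_subtype]
  omega

end main

end Cfsg.Agent.Lib.Helper74.BlockCenterG
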