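import Mathlib
import Cfsg.Agent.Lib.Helper74.BlockAlg
import Cfsg.Agent.Lib.Helper77.Dict2
import Cfsg.Agent.Lib.Helper78.RankOne
import Cfsg.Agent.Lib.Helper78.CharCongr
import Cfsg.Agent.Lib.Helper25.NilpotentCoprime

/-!
# Blocks with `l(B) = 1`: trace forms killing nilpotent elements (helper74)
-/

set_option autoImplicit false
set_option linter.unusedSectionVars false

namespace Cfsg.Agent.Lib.Helper74.BlockOne

open Cfsg Module MonoidAlgebra Cfsg.Agent.Lib.Helper77 Cfsg.Agent.Lib.Helper78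
  Cfsg.Agent.Lib.Helper74.SymAlg Cfsg.Agent.Lib.Helper74.BlockAlg

universe u

section gen

variable {k : Type*} [Field k] {G : Type*} [Group G] [Fintype G]

theorem form_eq_sum (T : MonoidAlgebra k G →ₗ[k] k) (x : MonoidAlgebra k G) :
    T x = ∑ g, x.coeff g * T (single g 1) := by
  conv_lhs => rw [eq_sum_single x]
  rw [map_sum]
  refine Finset.sum_congr rfl fun g _ => ?_
  have : single g (x.coeff g) = x.coeff g • (single g (1 : k) : MonoidAlgebra k G) := by
    rw [smul_single, smul_eq_mul, mul_one]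
  rw [this, map_smul, smul_eq_mul]

/-- the linear form with prescribed values on group elements -/
noncomputable def formOf (f : G → k) : MonoidAlgebra k G →ₗ[k] k :=
  ∑ g, f g • ((Finsupp.lapply g) ∘ₗ (coeffLinearEquiv k).toLinearMap)

theorem formOf_apply (f : G → k) (x : MonoidAlgebra k G) :
    formOf f x = ∑ g, x.coeff g * f g := by
  unfold formOf
  rw [LinearMap.sum_apply]
  refine Finset.sum_congr rfl fun g _ => ?_
  rw [LinearMap.smul_apply, smul_eq_mul, mul_comm]
  rfl

theorem form_class (T : MonoidAlgebra k G →ₗ[k] k) (hT : ∀ x y, T (x * y) = T (y * x)) (g x : G) :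
    T (single (x * g * x⁻¹) 1) = T (single g 1) := by
  have : (single (x * g * x⁻¹) (1 : k) : MonoidAlgebra k G)
      = (single x 1 * single g 1) * single x⁻¹ 1 := by
    simp [single_mul_single]
  rw [this, hT, ← mul_assoc, single_mul_single]
  simp [single_mul_single]

theorem nilp_sub {p : ℕ} [Fact p.Prime] [CharP k p] {u s : G} (hc : Commute u s) {m : ℕ}
    (hu : u ^ p ^ m = 1) :
    IsNilpotent ((single (u * s) 1 - single s 1 : MonoidAlgebra k G)) := by
  have : CharP (MonoidAlgebra k G) p :=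
    charP_of_injective_algebraMap (algebraMap k (MonoidAlgebra k G)).injective p
  refine ⟨p ^ m, ?_⟩
  have hcc : Commute (single (u * s) 1 : MonoidAlgebra k G) (single s 1) := by
    show _ * _ = _ * _
    rw [single_mul_single, single_mul_single, mul_assoc, ← mul_assoc s u s, ← hc.eq, mul_assoc]
  rw [sub_pow_char_pow_of_commute (p := p) (h := hcc), single_pow, single_pow, hc.mul_pow, hu, one_mul, sub_self]

end gen

variable {G : Type u} [Group G] [Fintype G] (M : Ideal AlgInt) [hP : M.IsPrime] {p : ℕ}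

/-- `p`-part / `p'`-part in the form needed here -/
theorem exists_parts (hp : p.Prime) (g : G) :
    ∃ (u s : G) (m : ℕ), g = u * s ∧ Commute u s ∧ u ^ p ^ m = 1 ∧ IsPRegular p s := by
  obtain ⟨u, hu, v, hv, h1, ⟨m, hm⟩, h3⟩ :=
    Cfsg.Agent.Lib.Helper25.exists_pPart_mul_pPrimePart p hp g
  refine ⟨u, v, m, h1, ?_, ?_, ?_⟩
  · obtain ⟨a, rfl⟩ := Subgroup.mem_zpowers_iff.1 hu
    obtain ⟨b, rfl⟩ := Subgroup.mem_zpowers_iff.1 hv
    exact (Commute.refl g).zpow_zpow a b
  · rw [← hm]; exact pow_orderOf_eq_one u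
  · intro hd
    exact hp.one_lt.ne' (Nat.dvd_one.1 (h3 ▸ Nat.dvd_gcd hd dvd_rfl))

/-- generalized orthogonality for the block idempotent -/
theorem sum_blockCoeff_mul (B : Set (IrrCharacter G)) (χ : IrrCharacter G) (g : G) :
    ∑ y, blockCoeff B (g⁻¹ * y) * (χ : G → ℂ) y
      = by classical exact if χ ∈ B then (χ : G → ℂ) g else 0 := by
  classical
  have h1 := omega_conv χ.2 (Pi.single g 1) (blockCoeff_isClassFunction B)
  rw [omega_blockCoeff] at h1
  have hχ1 : (χ : G → ℂ) 1 ≠ 0 := irr_one_ne_zero χ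
  unfold omega conv at h1
  have h2 : ∀ y, ∑ x : G, (Pi.single g (1 : ℂ) : G → ℂ) x * blockCoeff B (x⁻¹ * y)
      = blockCoeff B (g⁻¹ * y) := by
    intro y
    rw [Finset.sum_eq_single g]
    · simp
    · intro b _ hb
      rw [Pi.single_eq_of_ne hb, zero_mul]
    · simp
  have h3 : ∑ x : G, (Pi.single g (1 : ℂ) : G → ℂ) x * (χ : G → ℂ) x = (χ : G → ℂ) g := by
    rw [Finset.sum_eq_single g]
    · simp
    · intro b _ hb
      rw [Pi.single_eq_of_ne hb, zero_mul]
    · simp
  simp only [h2, h3] at h1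
  rw [div_mul_eq_mul_div, div_left_inj' hχ1] at h1
  rw [h1]
  split_ifs <;> simp

/-- the conclusion of the "class functions are spanned by reductions of characters" lemma -/
def SpanHyp (G : Type u) [Group G] [Fintype G] (M : Ideal AlgInt) [hP : M.IsPrime] (p : ℕ) : Prop :=
  ∀ h : G → ResF M, (∀ g x, h (x * g * x⁻¹) = h g) →
    ∃ C : IrrCharacter G → ResF M, ∀ g, IsPRegular p g →
      h g = ∑ χ : IrrCharacter G, C χ * red M ((χ : G → ℂ) g)

theorem core [Fact p.Prime] (hM : IsPModular p M) {B : Set (IrrCharacter G)} (hB : IsPBlock M B)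
    (hl : blockRank p B = 1) (hR7 : SpanHyp G M p) :
    ∃ Φ : MonoidAlgebra (ResF M) G →ₗ[ResF M] ResF M,
      ∀ T : MonoidAlgebra (ResF M) G →ₗ[ResF M] ResF M,
      (∀ x y, T (x * y) = T (y * x)) → (∀ x, IsNilpotent x → T x = 0) →
      (∀ x, T (x * ebar M B) = T x) → ∃ s : ResF M, T = s • Φ := by
  classical
  have := resF_charP hM
  obtain ⟨n, d, g0, hg0, hdeg, hnd, hval⟩ := rankOne_structure hM.1 (IsPBlock.nonempty hP hB) hl
  choose up sp mp h1 h2 h3 h4 using exists_parts (G := G) hM.1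
  obtain ⟨φ, hφ⟩ : ∃ φ : G → ℂ, φ = fun x => ∑ᶠ ψ ∈ B, (n ψ : ℂ) * (ψ : G → ℂ) x := ⟨_, rfl⟩
  have hirr : ∀ (χ : IrrCharacter G) (g : G), MemLocalRing M ((χ : G → ℂ) g) := fun χ g =>
    memLocalRing_irr hP χ g
  have hφR : ∀ x, MemLocalRing M (φ x) := by
    intro x
    rw [hφ]
    show MemLocalRing M (∑ᶠ ψ ∈ B, (n ψ : ℂ) * (ψ : G → ℂ) x)
    rw [finsum_mem_irr]
    refine MemLocalRing.sum hP _ _ fun ψ _ => ?_
    split_ifs
    · exact MemLocalRing.mul hP (memLocalRing_intCast hP _) (hirr ψ x)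
    · exact memLocalRing_zero hP
  have hcong : ∀ (χ : IrrCharacter G) (g : G),
      red M ((χ : G → ℂ) g) = red M ((χ : G → ℂ) (sp g)) := by
    intro χ g
    rw [red_eq_iff (hirr χ g) (hirr χ (sp g))]
    have := memLocalIdeal_char_mul_sub hM (IsIrrCharacter.isCharacter χ.2) (h2 g) (h3 g)
    rwa [← h1 g] at this
  refine ⟨formOf fun g => red M (φ (sp g)), ?_⟩
  intro T hT hN hE
  obtain ⟨f, hf⟩ : ∃ f : G → ResF M, f = fun g => T (single g 1) := ⟨_, rfl⟩
  have hfa : ∀ g, f g = T (single g 1) := fun g => by rw [hf]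
  have hcl : ∀ g x, f (x * g * x⁻¹) = f g := fun g x => by
    rw [hfa, hfa, form_class T hT]
  have hps : ∀ g, f g = f (sp g) := by
    intro g
    rw [hfa, hfa, ← sub_eq_zero, ← map_sub]
    apply hN
    have := nilp_sub (k := ResF M) (p := p) (h2 g) (h3 g)
    rwa [← h1 g] at this
  obtain ⟨C, hC⟩ := hR7 f hcl
  have hall : ∀ g, f g = ∑ χ : IrrCharacter G, C χ * red M ((χ : G → ℂ) g) := by
    intro g
    rw [hps, hC _ (h4 g)]
    refine Finset.sum_congr rfl fun χ _ => ?_
    rw [hcong χ g]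
  have hBs : ∀ g, f g = ∑ χ : IrrCharacter G, if χ ∈ B then C χ * red M ((χ : G → ℂ) g) else 0 := by
    intro g
    rw [hfa, ← hE, form_eq_sum]
    have e1 : ∀ y, (single g 1 * ebar M B).coeff y = red M (blockCoeff B (g⁻¹ * y)) := by
      intro y
      rw [coeff_mul_left, Finset.sum_eq_single g]
      · simp [ebar, coeff_ofFun]
      · intro b _ hb
        rw [coeff_single, Finsupp.single_apply, if_neg (fun h => hb h.symm), zero_mul]
      · simp
    simp only [e1, ← hfa, hall, Finset.mul_sum]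
    rw [Finset.sum_comm]
    refine Finset.sum_congr rfl fun χ _ => ?_
    have e2 := congrArg (red M) (sum_blockCoeff_mul B χ g)
    rw [red_sum _ _ (fun y _ => MemLocalRing.mul hP (memLocalRing_blockCoeff hP hB _) (hirr χ y))]
      at e2
    have e3 : ∀ y, red M (blockCoeff B (g⁻¹ * y)) * (C χ * red M ((χ : G → ℂ) y))
        = C χ * red M (blockCoeff B (g⁻¹ * y) * (χ : G → ℂ) y) := by
      intro y
      rw [red_mul (memLocalRing_blockCoeff hP hB _) (hirr χ y)]
      ring
    simp only [e3, ← Finset.mul_sum]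
    rw [e2]
    split_ifs
    · rfl
    · rw [red_zero, mul_zero]
  refine ⟨∑ χ : IrrCharacter G, if χ ∈ B then C χ * (d χ : ResF M) else 0, ?_⟩
  apply LinearMap.ext
  intro x
  rw [LinearMap.smul_apply, formOf_apply, form_eq_sum, smul_eq_mul, Finset.mul_sum]
  refine Finset.sum_congr rfl fun g _ => ?_
  rw [← hfa, hBs, mul_left_comm, Finset.sum_mul]
  congr 1
  refine Finset.sum_congr rfl fun χ _ => ?_
  split_ifs with hχ
  · rw [hcong χ g, hval χ hχ _ (h4 g)]
    have : (∑ᶠ ψ ∈ B, (n ψ : ℂ) * (ψ : G → ℂ) (sp g)) = φ (sp g) := by rw [hφ]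
    rw [this, red_mul (memLocalRing_natCast hP _) (hφR _), red_natCast, mul_assoc]
  · rw [zero_mul]

section quot

variable {B : Set (IrrCharacter G)} [(annI (ebar M B)).IsTwoSided]

theorem r1_hyp [Fact p.Prime] (hM : IsPModular p M) (hB : IsPBlock M B)
    (hl : blockRank p B = 1) (hR7 : SpanHyp G M p) :
    ∀ t₁ ∈ traceForms (ResF M) (MonoidAlgebra (ResF M) G ⧸ annI (ebar M B)),
    ∀ t₂ ∈ traceForms (ResF M) (MonoidAlgebra (ResF M) G ⧸ annI (ebar M B)),
      (∀ a, IsNilpotent a → t₁ a = 0) → (∀ a, IsNilpotent a → t₂ a = 0) →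
      ∃ c₁ c₂ : ResF M, (c₁ ≠ 0 ∨ c₂ ≠ 0) ∧ c₁ • t₁ + c₂ • t₂ = 0 := by
  obtain ⟨Φ, hΦ⟩ := core M hM hB hl hR7
  have key : ∀ t ∈ traceForms (ResF M) (MonoidAlgebra (ResF M) G ⧸ annI (ebar M B)),
      (∀ a, IsNilpotent a → t a = 0) →
      ∃ s : ResF M, ∀ x, t (Ideal.Quotient.mk (annI (ebar M B)) x) = s * Φ x := by
    intro t ht hN
    obtain ⟨s, hs⟩ := hΦ (t ∘ₗ (Ideal.Quotient.mkₐ (ResF M) (annI (ebar M B))).toLinearMap)
      (fun x y => by
        show t (Ideal.Quotient.mk _ (x * y)) = t (Ideal.Quotient.mk _ (y * x))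
        rw [map_mul (Ideal.Quotient.mk _), map_mul (Ideal.Quotient.mk _), ht])
      (fun x hx => hN _ (hx.map (Ideal.Quotient.mk (annI (ebar M B)))))
      (fun x => by
        show t (Ideal.Quotient.mk _ (x * ebar M B)) = t (Ideal.Quotient.mk _ x)
        have : Ideal.Quotient.mk (annI (ebar M B)) (x * ebar M B) = Ideal.Quotient.mk _ x :=
          mk_eq_mk.2 (by rw [mul_assoc, ebar_idem M hB])
        rw [this])
    exact ⟨s, fun x => LinearMap.congr_fun hs x⟩
  intro t₁ ht₁ t₂ ht₂ hN₁ hN₂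
  obtain ⟨s₁, hs₁⟩ := key t₁ ht₁ hN₁
  obtain ⟨s₂, hs₂⟩ := key t₂ ht₂ hN₂
  by_cases h0 : s₁ = 0
  · refine ⟨1, 0, Or.inl one_ne_zero, ?_⟩
    apply LinearMap.ext
    intro a
    obtain ⟨x, rfl⟩ := Ideal.Quotient.mk_surjective a
    simp [hs₁, h0]
  · refine ⟨s₂, -s₁, Or.inr (neg_ne_zero.2 h0), ?_⟩
    apply LinearMap.ext
    intro a
    obtain ⟨x, rfl⟩ := Ideal.Quotient.mk_surjective a
    simp only [LinearMap.add_apply, LinearMap.smul_apply, hs₁, hs₂, smul_eq_mul,
      LinearMap.zero_apply]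
    ring

theorem nontrivial_quot (hB : IsPBlock M B) :
    Nontrivial (MonoidAlgebra (ResF M) G ⧸ annI (ebar M B)) := by
  refine ⟨⟨1, 0, fun h => ?_⟩⟩
  rw [← map_one (Ideal.Quotient.mk (annI (ebar M B))), mk_eq_zero, one_mul] at h
  exact ebar_ne_zero M hB h

end quot

section transfer

variable {k : Type*} [Field k] {H : Type*} [Group H] [Fintype H]
  {e : MonoidAlgebra k H} [(annI e).IsTwoSided]

/-- idempotents of the block algebra come from idempotents of the group algebra, with the same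
dimension of the left ideal they generate -/
theorem idem_transfer (he : e * e = e) (hc : ∀ x, e * x = x * e)
    (ε : MonoidAlgebra k H ⧸ annI e) (hε : ε * ε = ε) :
    ∃ ε' : MonoidAlgebra k H, ε' * ε' = ε' ∧
      finrank k (LinearMap.range (LinearMap.mulRight k ε'))
        = finrank k (LinearMap.range (LinearMap.mulRight k ε)) := by
  obtain ⟨x, rfl⟩ := Ideal.Quotient.mk_surjective ε
  rw [← map_mul, mk_eq_mk] at hε
  have hmk : Ideal.Quotient.mk (annI e) (x * e) = Ideal.Quotient.mk (annI e) x :=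
    mk_eq_mk.2 (by rw [mul_assoc, he])
  refine ⟨x * e, ?_, ?_⟩
  · rw [mul_assoc, ← mul_assoc e, hc x, mul_assoc x e e, he, ← mul_assoc, hε]
  · let f : LinearMap.range (LinearMap.mulRight k (x * e)) →ₗ[k]
        LinearMap.range (LinearMap.mulRight k (Ideal.Quotient.mk (annI e) x)) :=
      ((Ideal.Quotient.mkₐ k (annI e)).toLinearMap.domRestrict _).codRestrict _ (by
        rintro ⟨_, y, rfl⟩
        refine ⟨Ideal.Quotient.mk (annI e) y, ?_⟩
        show Ideal.Quotient.mk (annI e) y * Ideal.Quotient.mk (annI e) x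
          = Ideal.Quotient.mk (annI e) (y * (x * e))
        rw [map_mul, hmk])
    have hf : Function.Bijective f := by
      constructor
      · rw [← LinearMap.ker_eq_bot, LinearMap.ker_eq_bot']
        rintro ⟨_, y, rfl⟩ h
        have h1 : Ideal.Quotient.mk (annI e) (y * (x * e)) = 0 := congrArg Subtype.val h
        rw [mk_eq_zero, mul_assoc, mul_assoc, he] at h1
        exact Subtype.ext h1
      · rintro ⟨_, a, rfl⟩
        obtain ⟨y, rfl⟩ := Ideal.Quotient.mk_surjective a
        refine ⟨⟨y * (x * e), y, rfl⟩, ?_⟩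
        apply Subtype.ext
        show Ideal.Quotient.mk (annI e) (y * (x * e))
          = Ideal.Quotient.mk (annI e) y * Ideal.Quotient.mk (annI e) x
        rw [map_mul, hmk]
    exact (LinearEquiv.ofBijective f hf).finrank_eq

end transfer

end Cfsg.Agent.Lib.Helper74.BlockOne
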