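import Mathlib
import Cfsg.Agent.Lib.Helper77.Klein
import Cfsg.Agent.Lib.Helper74.HeightSec

/-!
# Fusion of the central subsections of a maximal Brauer pair (helper74)

The elements of `Z(P)`, `(P, e)` a maximal `B`-Brauer pair, give major subsections; two of them are
conjugate only if the elements are conjugate under `N_G(P, e)`.
-/

set_option autoImplicit false
set_option linter.unusedSectionVars false

namespace Cfsg.Agent.Lib.Helper74

open Cfsg MonoidAlgebra Cfsg.Agent.Lib.Helper78 Cfsg.Agent.Lib.Helper85 Cfsg.Agent.Lib.Helper77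

universe u v

/-- an orbit of `T` on which `H` acts trivially has at most `|T : H ∩ T|` elements -/
theorem card_le_relIndex_of_orbit {G : Type u} [Group G] [Finite G] {T H : Subgroup G}
    (S : Finset G) (v0 : G) (hHc : ∀ h ∈ H, h * v0 * h⁻¹ = v0)
    (hS : ∀ w ∈ S, ∃ a ∈ T, a * v0 * a⁻¹ = w) : S.card ≤ H.relIndex T := by
  classical
  have hex : ∀ w : G, ∃ a : T, w ∈ S → (a : G) * v0 * (a : G)⁻¹ = w := by
    intro w
    by_cases hw : w ∈ S
    · obtain ⟨a, ha, h⟩ := hS w hw
      exact ⟨⟨a, ha⟩, fun _ => h⟩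
    · exact ⟨1, fun h => absurd h hw⟩
  choose a ha using hex
  have := Fintype.ofFinite (T ⧸ H.subgroupOf T)
  have h1 : S.card ≤ (Finset.univ : Finset (T ⧸ H.subgroupOf T)).card := by
    refine Finset.card_le_card_of_injOn (fun w => (QuotientGroup.mk (a w) : T ⧸ H.subgroupOf T))
      (fun _ _ => Finset.mem_univ _) ?_
    intro w hw w' hw' heq
    have h2 : (a w)⁻¹ * a w' ∈ H.subgroupOf T := QuotientGroup.eq.1 heq
    have h3 := hHc _ (Subgroup.mem_subgroupOf.1 h2)
    push_cast at h3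
    rw [← ha w hw, ← ha w' hw']
    calc (a w : G) * v0 * (a w : G)⁻¹
        = (a w : G) * (((a w : G)⁻¹ * (a w' : G)) * v0 * ((a w : G)⁻¹ * (a w' : G))⁻¹) *
          (a w : G)⁻¹ := by rw [h3]
      _ = (a w' : G) * v0 * (a w' : G)⁻¹ := by group
  rw [Finset.card_univ, ← Nat.card_eq_fintype_card] at h1
  exact h1

variable {G : Type u} [Group G] [Fintype G] (M : Ideal AlgInt) [hP : M.IsPrime]
variable {p : ℕ} [Fact p.Prime]

/-- fusion of Brauer pairs centralized by `P` is controlled by `N_G(P, e)` -/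
theorem fusion_factor_of_central (hM : IsPModular p M) {B : Set (IrrCharacter G)}
    (hB : IsPBlock M B) {x y : APair (ResF M) G} (hy : IsAMax p y)
    (hyb : IsABlockOf (ebar M B) y) (h : ALE p x y) (hPC : y.1 ≤ Cen x.1) {t : G}
    (ht : ALE p (cjP t x) y) (hPC2 : y.1 ≤ Cen (cjP t x).1) :
    ∃ a ∈ stabP y, ∃ c ∈ Cen (cjP t x).1, t = c * a := by
  have := resF_charP hM
  have hdec := hasBlockDecomp (G := G) M
  have hx2P : IsAPair p (cjP t x) := ht.isAPair_left hy.1
  have hCN : Cen x.1 ≤ Subgroup.normalizer (x.1 : Set G) := Subgroup.centralizer_le_normalizer _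
  have hCN2 : Cen (cjP t x).1 ≤ Subgroup.normalizer ((cjP t x).1 : Set G) :=
    Subgroup.centralizer_le_normalizer _
  have hn : ANormal p x y := h.toANormal hdec hy.1 (hPC.trans hCN)
  have hn2 : ANormal p (cjP t x) y := ht.toANormal hdec hy.1 (hPC2.trans hCN2)
  have hn' : ANormal p (cjP t x) (cjP t y) := hn.cjP t
  have hzH : (cjP t y).1 ≤ Cen (cjP t x).1 := map_conj_le_cen hPC t
  have hdef := isDef_of_normal_isAMax M hM hB hy hyb hn2 hPC2 (cen_le_stabP hx2P)
  obtain ⟨c₀, hc₀, hle⟩ := rel_conj' M hM hx2P (ht.le.trans hPC2) le_rfl hCN2 hx2P.2.mem.2 hn' hn2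
    hzH hdef
  rw [cjP_cjP] at hle
  have h1 : (cjP (c₀ * t) y).1 = y.1 :=
    Subgroup.eq_of_le_of_card_ge hle.le (by
      show Nat.card y.1 ≤ Nat.card (y.1.map (MulAut.conj (c₀ * t)).toMonoidHom)
      rw [Helper77.card_map_conj])
  have h2 : cjP (c₀ * t) y = y :=
    ALE.eq_of_fst_eq hdec hy.1 hle Relation.ReflTransGen.refl h1
  exact ⟨c₀ * t, mem_stabP.2 h2, c₀⁻¹, Subgroup.inv_mem _ hc₀, by group⟩

/-- an element centralized by `P` gives a major subsection -/
theorem exists_major_of_central (hM : IsPModular p M) {B : Set (IrrCharacter G)}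
    (hB : IsPBlock M B) {y : APair (ResF M) G} (hy : IsAMax p y)
    (hyb : IsABlockOf (ebar M B) y) {a : G}
    (hPC : y.1 ≤ Cen (Subgroup.zpowers a)) {f : MonoidAlgebra (ResF M) G}
    (hf : ALE p ((Subgroup.zpowers a, f) : APair (ResF M) G) y) :
    ∃ b : Set (IrrCharacter (Subgroup.centralizer ({a} : Set G))),
      IsInducedBlock M (Subgroup.centralizer ({a} : Set G)) b B ∧
      idem M (Subgroup.centralizer ({a} : Set G)) b = f ∧
      blockDefect p b = blockDefect p B := by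
  have := resF_charP hM
  have hdec := hasBlockDecomp (G := G) M
  have hp : p.Prime := Fact.out
  have hD := isDefectGroup_of_isAMax M hM hB hy hyb
  have hcard := card_of_isDefectGroup hM hB hD
  obtain ⟨b, hbind, hbe⟩ := exists_block_of_conj M hM hB hy hyb hf (g := 1) (x := a) (by group)
  rw [cj_one_apply] at hbe
  have hPH : y.1 ≤ Subgroup.centralizer ({a} : Set G) := by rw [← cen_zpowers]; exact hPC
  have hn_u : ANormal p ((Subgroup.zpowers a, f) : APair (ResF M) G) y :=
    hf.toANormal hdec hy.1 (hPC.trans (Subgroup.centralizer_le_normalizer _))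
  have hdef : IsDef p (Subgroup.centralizer ({a} : Set G)) f y.1 :=
    isDef_of_normal_isAMax M hM hB hy hyb hn_u hPH (by
      rw [← cen_zpowers]; exact cen_le_stabP hn_u.1)
  have hDb : IsDefectGroup p M b (y.1.subgroupOf (Subgroup.centralizer ({a} : Set G))) :=
    (isDefectGroup_subgroupOf_iff M hM hbind.1 hPH).2 (by rw [hbe]; exact hdef)
  refine ⟨b, hbind, hbe, ?_⟩
  have h1 := card_of_isDefectGroup hM hbind.1 hDb
  rw [card_subgroupOf_of_le hPH, hcard] at h1
  exact (Nat.pow_right_injective hp.two_le h1).symm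

open Classical in
/-- **Counting**: `|Z(P)| ≤ |N_G(P,e) : H|` times the number of classes of major subsections, if
`H` centralizes `Z(P)`. -/
theorem card_center_le (hM : IsPModular p M) {B : Set (IrrCharacter G)}
    (hB : IsPBlock M B) {y : APair (ResF M) G} (hy : IsAMax p y)
    (hyb : IsABlockOf (ebar M B) y) (X : Finset G) (r : G → G)
    (hr : ∀ g : G, IsConj g (r g)) (hrX : ∀ g : G, (∃ k : ℕ, orderOf g = p ^ k) → r g ∈ X)
    (H : Subgroup G) (hH : H ≤ y.1 ⊔ Cen y.1) :
    (Finset.univ.filter (fun v : G => v ∈ y.1 ∧ y.1 ≤ Cen (Subgroup.zpowers v))).card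
      ≤ H.relIndex (stabP y) * ∑ x ∈ X,
        ((indBlocks M x B).filter (fun β => blockDefect p β = blockDefect p B)).card := by
  have := resF_charP hM
  have hdec := hasBlockDecomp (G := G) M
  set ZF : Finset G :=
    Finset.univ.filter (fun v : G => v ∈ y.1 ∧ y.1 ≤ Cen (Subgroup.zpowers v)) with hZF
  have hmem : ∀ {v : G}, v ∈ ZF ↔ v ∈ y.1 ∧ y.1 ≤ Cen (Subgroup.zpowers v) := by
    intro v; simp [hZF]
  have hfib : ZF.card = ∑ x ∈ X, (ZF.filter (fun v => r v = x)).card :=
    Finset.card_eq_sum_card_fiberwise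
      (fun v hv => hrX v (exists_orderOf_eq_of_mem hy.1.1 (hmem.1 hv).1))
  rw [hfib, Finset.mul_sum]
  refine Finset.sum_le_sum fun x _ => ?_
  have hex : ∀ v ∈ ZF.filter (fun v => r v = x),
      ∃ b : Set (IrrCharacter (Subgroup.centralizer ({x} : Set G))),
        b ∈ (indBlocks M x B).filter (fun β => blockDefect p β = blockDefect p B) ∧
        ∃ (g : G) (f : MonoidAlgebra (ResF M) G), g * v * g⁻¹ = x ∧
          ALE p ((Subgroup.zpowers v, f) : APair (ResF M) G) y ∧
          idem M (Subgroup.centralizer ({x} : Set G)) b = cj g f := by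
    intro v hv
    rw [Finset.mem_filter] at hv
    obtain ⟨hvy, hvc⟩ := hmem.1 hv.1
    obtain ⟨g, hg⟩ := _root_.isConj_iff.1 (hv.2 ▸ hr v)
    obtain ⟨f, hf⟩ := exists_ALE' hdec hy.1
      (show Subgroup.zpowers v ≤ y.1 by rw [Subgroup.zpowers_le]; exact hvy)
    have h1 : cjP g ((Subgroup.zpowers v, f) : APair (ResF M) G)
        = (Subgroup.zpowers x, cj g f) := by
      refine Prod.ext ?_ rfl
      show (Subgroup.zpowers v).map _ = _
      rw [map_conj_zpowers, hg]
    have hf' : ALE p ((Subgroup.zpowers x, cj g f) : APair (ResF M) G) (cjP g y) := by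
      rw [← h1]; exact hf.cjP g
    have hPC' : (cjP g y).1 ≤ Cen (Subgroup.zpowers x) := by
      have := map_conj_le_cen hvc g
      rwa [map_conj_zpowers, hg] at this
    obtain ⟨b, hb1, hb2, hb3⟩ := exists_major_of_central M hM hB (hy.cjP g) (hyb.cjP g) hPC' hf'
    exact ⟨b, Finset.mem_filter.2 ⟨mem_indBlocks.2 hb1, hb3⟩, g, f, hg, hf, hb2⟩
  choose! φ hφ using hex
  refine Finset.card_le_mul_card_image_of_maps_to (f := φ) (fun v hv => (hφ v hv).1) _ ?_
  intro b _
  rcases Finset.eq_empty_or_nonempty ((ZF.filter (fun v => r v = x)).filter (fun v => φ v = b))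
    with hemp | ⟨v0, hv0⟩
  · rw [hemp]; simp
  rw [Finset.mem_filter] at hv0
  obtain ⟨-, g0, f0, hg0, hf0, hb0⟩ := hφ v0 hv0.1
  obtain ⟨hv0y, hv0c⟩ := hmem.1 (Finset.mem_filter.1 hv0.1).1
  refine card_le_relIndex_of_orbit _ v0 ?_ ?_
  · -- `H` centralizes `v0`
    intro h hh
    have h1 : y.1 ⊔ Cen y.1 ≤ Cen (Subgroup.zpowers v0) :=
      sup_le hv0c (cen_anti (by rw [Subgroup.zpowers_le]; exact hv0y))
    have h2 := (Subgroup.mem_centralizer_iff.1 (h1 (hH hh))) v0 (Subgroup.mem_zpowers v0)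
    rw [← h2]; group
  · intro w hw
    rw [Finset.mem_filter] at hw
    obtain ⟨-, g', f', hg', hf', hb'⟩ := hφ w hw.1
    obtain ⟨hwy, hwc⟩ := hmem.1 (Finset.mem_filter.1 hw.1).1
    have htv : g'⁻¹ * g0 * v0 * (g'⁻¹ * g0)⁻¹ = w := by
      calc g'⁻¹ * g0 * v0 * (g'⁻¹ * g0)⁻¹ = g'⁻¹ * (g0 * v0 * g0⁻¹) * g' := by group
        _ = g'⁻¹ * (g' * w * g'⁻¹) * g' := by rw [hg0, hg']
        _ = w := by group
    have htf : cj (g'⁻¹ * g0) f0 = f' := by
      rw [cj_mul_apply, ← hb0, hv0.2, ← hw.2, hb', cj_inv_cj]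
    have h1 : cjP (g'⁻¹ * g0) ((Subgroup.zpowers v0, f0) : APair (ResF M) G)
        = (Subgroup.zpowers w, f') := by
      refine Prod.ext ?_ htf
      show (Subgroup.zpowers v0).map _ = _
      rw [map_conj_zpowers, htv]
    obtain ⟨a, ha, c, hc, hca⟩ := fusion_factor_of_central M hM hB hy hyb hf0 hv0c
      (t := g'⁻¹ * g0) (by rw [h1]; exact hf') (by rw [h1]; exact hwc)
    rw [h1] at hc
    have hc' := (Subgroup.mem_centralizer_iff.1 hc) w (Subgroup.mem_zpowers w)
    refine ⟨a, ha, ?_⟩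
    have h3 : c * (a * v0 * a⁻¹) * c⁻¹ = w := by
      rw [← htv, hca]; group
    calc a * v0 * a⁻¹ = c⁻¹ * (c * (a * v0 * a⁻¹) * c⁻¹) * c := by group
      _ = c⁻¹ * (w * c) := by rw [h3]; group
      _ = c⁻¹ * (c * w) := by rw [hc']
      _ = w := by group

end Cfsg.Agent.Lib.Helper74
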