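import Mathlib
import Cfsg.Agent.Lib.Helper77.Inertial
import Cfsg.Agent.Lib.Helper74.HeightFus

/-!
# Brauer's bound `h + c ≤ n + d` for heights (helper74)
-/

set_option autoImplicit false
set_option linter.unusedSectionVars false

namespace Cfsg.Agent.Lib.Helper74

open Cfsg MonoidAlgebra Cfsg.Agent.Lib.Helper78 Cfsg.Agent.Lib.Helper85 Cfsg.Agent.Lib.Helper77

universe u v

variable {G : Type u} [Group G] [Fintype G] (M : Ideal AlgInt) [hP : M.IsPrime]
variable {p : ℕ} [Fact p.Prime]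

theorem sup_cen_le_normalizer (D : Subgroup G) :
    D ⊔ Cen D ≤ Subgroup.normalizer (D : Set G) :=
  sup_le Subgroup.le_normalizer (Subgroup.centralizer_le_normalizer _)

/-- a root `b` of `B` in `D C_G(D)` gives the maximal Brauer pair `(D, e_b)` -/
theorem root_pair (hM : IsPModular p M) {B : Set (IrrCharacter G)} (hB : IsPBlock M B)
    {D : Subgroup G} (hBD : IsDefectGroup p M B D) {b : Set (IrrCharacter ↥(D ⊔ Cen D))}
    (hind : IsInducedBlock M (D ⊔ Cen D) b B) :
    IsAMax p ((D, idem M (D ⊔ Cen D) b) : APair (ResF M) G) ∧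
      IsABlockOf (ebar M B) ((D, idem M (D ⊔ Cen D) b) : APair (ResF M) G) := by
  have hPp : IsPGroup p D := Helper16.IsDefectGroup.isPGroup hBD
  haveI := resF_charP hM
  have hDH : D ≤ D ⊔ Cen D := le_sup_left
  have hCH : Cen D ≤ D ⊔ Cen D := le_sup_right
  have hHN := sup_cen_le_normalizer D
  have hprimH := isPrimIdem_idem M hind.1
  have hsupp : SuppIn (Cen D) (idem M (D ⊔ Cen D) b) :=
    suppIn_cen_of_idem p hDH hHN hPp hprimH.mem hprimH.idem
  have hprimC : IsPrimIdem (Cen D) (idem M (D ⊔ Cen D) b) :=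
    ⟨⟨hsupp, hprimH.mem.2.mono hCH⟩, hprimH.idem, hprimH.ne_zero, fun ε' hε' hi =>
      hprimH.prim ε' ⟨hε'.1.mono hCH, (fixedBy_of_suppIn_cen hε'.1).sup hε'.2⟩ hi⟩
  have hblk : IsABlockOf (ebar M B) ((D, idem M (D ⊔ Cen D) b) : APair (ResF M) G) :=
    ⟨isPrimIdem_ebar M hB, (isInducedBlock_iff_trunc M hM hPp hDH hCH hHN hind.1 hB).1 hind⟩
  have hpair : IsAPair p ((D, idem M (D ⊔ Cen D) b) : APair (ResF M) G) := ⟨hPp, hprimC⟩
  refine ⟨⟨hpair, fun z hz => ?_⟩, hblk⟩
  obtain ⟨w, hzw, hw⟩ := exists_isAMax (hz.isAPair_right hpair)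
  have hwb : IsABlockOf (ebar M B) w :=
    (isABlockOf_iff_of_le (hasBlockDecomp M) (hz.trans hzw)).1 hblk
  have hwD := isDefectGroup_of_isAMax M hM hB hw hwb
  have hcard : Nat.card w.1 = Nat.card D := by
    rw [card_of_isDefectGroup hM hB hwD, card_of_isDefectGroup hM hB hBD]
  have h2 : D ≤ z.1 := hz.le
  have h3 : z.1 ≤ w.1 := hzw.le
  have h4 : D = w.1 := Subgroup.eq_of_le_of_card_ge (h2.trans h3) hcard.le
  exact le_antisymm (h4 ▸ h3) h2

theorem normalizer_le_normalizer_sup_cen (D : Subgroup G) :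
    Subgroup.normalizer (D : Set G) ≤ Subgroup.normalizer ((D ⊔ Cen D : Subgroup G) : Set G) := by
  intro g hg
  rw [Subgroup.mem_normalizer_iff_map_conj_eq, Subgroup.map_sup,
    Subgroup.mem_normalizer_iff_map_conj_eq.1 hg,
    Subgroup.mem_normalizer_iff_map_conj_eq.1 (normalizer_le_normalizer_centralizer D hg)]

/-- the stabilizer of the pair `(D, e_b)` in terms of characters -/
theorem mem_stabP_root_iff {D : Subgroup G} {b : Set (IrrCharacter ↥(D ⊔ Cen D))}
    (hb : IsPBlock M b) (g : G) :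
    g ∈ stabP ((D, idem M (D ⊔ Cen D) b) : APair (ResF M) G) ↔
      g ∈ Subgroup.normalizer (D : Set G) ∧ conjSet (D ⊔ Cen D) (D ⊔ Cen D) g b ⊆ b := by
  show g ∈ Subgroup.normalizer (D : Set G) ∧ cj g (idem M (D ⊔ Cen D) b) = idem M (D ⊔ Cen D) b ↔ _
  apply and_congr_right
  intro hg
  have hx : D ⊔ Cen D = (D ⊔ Cen D).map (MulAut.conj g).toMonoidHom :=
    (Subgroup.mem_normalizer_iff_map_conj_eq.1 (normalizer_le_normalizer_sup_cen D hg)).symm
  rw [← idem_conjSet M hx]
  have hb' := isPBlock_conjSet hx hb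
  constructor
  · intro h
    rw [idem_injective M hb' hb h]
  · intro h
    obtain ⟨χ, hχ⟩ := IsPBlock.nonempty hP hb'
    rw [IsPBlock.eq_of_mem_mem hP hb' hb hχ (h hχ)]

open Classical in
theorem card_center_eq (D : Subgroup G) :
    (Finset.univ.filter (fun v : G => v ∈ D ∧ D ≤ Cen (Subgroup.zpowers v))).card
      = Nat.card (Subgroup.center D) := by
  have h1 : Nat.card (Subgroup.center D) = Nat.card ((Subgroup.center D).map D.subtype) :=
    (Subgroup.card_map_of_injective D.subtype_injective).symm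
  rw [h1, Nat.card_eq_fintype_card, Fintype.card_subtype]
  congr 1
  ext v
  simp only [Finset.mem_filter, Finset.mem_univ, true_and, Subgroup.mem_map]
  constructor
  · rintro ⟨hv, hc⟩
    refine ⟨⟨v, hv⟩, ?_, rfl⟩
    rw [Subgroup.mem_center_iff]
    intro a
    have := hc a.2
    rw [cen_zpowers, Subgroup.mem_centralizer_singleton_iff] at this
    exact Subtype.ext this
  · rintro ⟨z, hz, rfl⟩
    refine ⟨z.2, fun a ha => ?_⟩
    rw [cen_zpowers, Subgroup.mem_centralizer_singleton_iff]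
    exact congrArg Subtype.val ((Subgroup.mem_center_iff.1 hz) ⟨a, ha⟩)

/-- **Brauer**: `p^(h + c) ≤ e p^d`. -/
theorem pow_height_mul_center_le (hM : IsPModular p M) {B : Set (IrrCharacter G)}
    (hB : IsPBlock M B) {D : Subgroup G} (hBD : IsDefectGroup p M B D)
    {b : Set (IrrCharacter ↥(D ⊔ Cen D))} (hind : IsInducedBlock M (D ⊔ Cen D) b B)
    {χ : IrrCharacter G} (hχ : χ ∈ B) :
    Nat.card (Subgroup.center D) * p ^ blockHeight p B (χ : G → ℂ)
      ≤ (D ⊔ Cen D).relIndex (stabP ((D, idem M (D ⊔ Cen D) b) : APair (ResF M) G)) *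
        Nat.card D := by
  classical
  obtain ⟨hy, hyb⟩ := root_pair M hM hB hBD hind
  obtain ⟨X, r, hX, hXrep, hr, hrX, -⟩ := Helper77b.exists_pElement_reps p G
  have h1 := card_center_le M hM hB hy hyb X r hr hrX (D ⊔ Cen D) le_rfl
  have h2 := card_major_mul_le hM X hX hXrep hB hχ
  rw [card_center_eq] at h1
  rw [card_of_isDefectGroup hM hB hBD]
  calc Nat.card (Subgroup.center D) * p ^ blockHeight p B (χ : G → ℂ)
      ≤ ((D ⊔ Cen D).relIndex (stabP ((D, idem M (D ⊔ Cen D) b) : APair (ResF M) G)) * ∑ x ∈ X,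
        ((indBlocks M x B).filter (fun β => blockDefect p β = blockDefect p B)).card) *
          p ^ blockHeight p B (χ : G → ℂ) := Nat.mul_le_mul_right _ h1
    _ = (D ⊔ Cen D).relIndex (stabP ((D, idem M (D ⊔ Cen D) b) : APair (ResF M) G)) * ((∑ x ∈ X,
        ((indBlocks M x B).filter (fun β => blockDefect p β = blockDefect p B)).card) *
          p ^ blockHeight p B (χ : G → ℂ)) := by ring
    _ ≤ _ := Nat.mul_le_mul_left _ h2

end Cfsg.Agent.Lib.Helper74
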