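import Mathlib

/-!
# Odd order automorphism groups of abelian `2`-groups with at most three involutions
-/

set_option autoImplicit false
set_option linter.unusedSectionVars false

namespace Cfsg.Agent.Lib.Helper74

section aut

variable {A : Type*} [Group A] (hc : ∀ a b : A, a * b = b * a)

include hc in
/-- an automorphism of odd order of an abelian group fixing the involutions fixes all
`2`-elements -/
theorem aut_fix_of_fix_invol (σ : MulAut A) (n : ℕ) (hn : Odd n) (hσn : σ ^ n = 1)
    (hΩ : ∀ x : A, x * x = 1 → σ x = x) : ∀ k : ℕ, ∀ x : A, x ^ (2 ^ k) = 1 → σ x = x := by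
  intro k
  induction k with
  | zero => intro x hx; simp at hx; subst hx; simp
  | succ k ih =>
    intro x hxk
    have h2 : σ (x * x) = x * x := ih (x * x) (by
      rw [← pow_two, ← pow_mul, ← pow_succ']; exact hxk)
    obtain ⟨u, hu⟩ : ∃ u, u = σ x * x⁻¹ := ⟨_, rfl⟩
    have hu2 : u * u = 1 := by
      rw [hu]
      calc σ x * x⁻¹ * (σ x * x⁻¹) = σ x * (x⁻¹ * σ x) * x⁻¹ := by group
        _ = σ x * (σ x * x⁻¹) * x⁻¹ := by rw [hc x⁻¹ (σ x)]
        _ = σ (x * x) * (x * x)⁻¹ := by rw [map_mul]; group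
        _ = 1 := by rw [h2, mul_inv_cancel]
    have hσu : σ u = u := hΩ u hu2
    have hσx : σ x = u * x := by rw [hu]; group
    have hj : ∀ j : ℕ, (σ ^ j) x = u ^ j * x := by
      intro j
      induction j with
      | zero => simp
      | succ j ihj =>
        rw [pow_succ', MulAut.mul_apply, ihj, map_mul, map_pow, hσu, hσx, pow_succ]
        group
    have h3 := hj n
    rw [hσn, MulAut.one_apply] at h3
    have h5 : u ^ n = 1 := by
      have := congrArg (· * x⁻¹) h3
      simpa using this.symm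
    obtain ⟨r, rfl⟩ := hn
    have h6 : u = 1 := by
      rw [pow_succ, pow_mul, pow_two, hu2, one_pow, one_mul] at h5; exact h5
    rw [hσx, h6, one_mul]

variable [Finite A] (S : Subgroup (MulAut A)) (hodd : Odd (Nat.card S))
  (h2 : ∀ x : A, ∃ k : ℕ, x ^ (2 ^ k) = 1)

include hc hodd h2 in
theorem aut_eq_one_of_fix_invol {σ : MulAut A} (hσ : σ ∈ S) (hΩ : ∀ x : A, x * x = 1 → σ x = x) :
    σ = 1 := by
  ext x
  obtain ⟨k, hk⟩ := h2 x
  have hσn : σ ^ Nat.card S = 1 := by
    have : (⟨σ, hσ⟩ : S) ^ Nat.card S = 1 := pow_card_eq_one'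
    exact congrArg Subtype.val this
  exact aut_fix_of_fix_invol hc σ _ hodd hσn hΩ k x hk

/-- the action on the involutions -/
def involPerm : S →* Equiv.Perm {x : A // x ≠ 1 ∧ x * x = 1} where
  toFun σ :=
    { toFun := fun z => ⟨(σ : MulAut A) z.1, by
        refine ⟨fun h => z.2.1 ?_, by rw [← map_mul, z.2.2, map_one]⟩
        exact (σ : MulAut A).injective (by rw [h, map_one])⟩
      invFun := fun z => ⟨(σ : MulAut A).symm z.1, by
        refine ⟨fun h => z.2.1 ?_, by rw [← map_mul, z.2.2, map_one]⟩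
        exact (σ : MulAut A).symm.injective (by rw [h, map_one])⟩
      left_inv := fun z => Subtype.ext ((σ : MulAut A).symm_apply_apply z.1)
      right_inv := fun z => Subtype.ext ((σ : MulAut A).apply_symm_apply z.1) }
  map_one' := by ext z; rfl
  map_mul' := by intro a b; ext z; rfl

include hc hodd h2 in
theorem involPerm_injective : Function.Injective (involPerm S) := by
  rw [injective_iff_map_eq_one]
  intro σ hσ
  apply Subtype.ext
  apply aut_eq_one_of_fix_invol hc S hodd h2 σ.2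
  intro x hx
  by_cases hx1 : x = 1
  · rw [hx1, map_one]
  · have := DFunLike.congr_fun hσ ⟨x, hx1, hx⟩
    exact congrArg Subtype.val this

include hc hodd h2 in
theorem card_aut_of_three_invol (h3 : Nat.card {x : A // x ≠ 1 ∧ x * x = 1} ≤ 3) :
    Nat.card S = 1 ∨ Nat.card S = 3 := by
  have h1 := Subgroup.card_dvd_of_injective (involPerm S) (involPerm_injective hc S hodd h2)
  rw [Nat.card_perm] at h1
  have h6 : Nat.card S ∣ 6 := h1.trans (Nat.factorial_dvd_factorial h3)
  have hle : Nat.card S ≤ 6 := Nat.le_of_dvd (by norm_num) h6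
  obtain ⟨r, hr⟩ := hodd
  have hcases : Nat.card S = 1 ∨ Nat.card S = 3 ∨ Nat.card S = 5 := by omega
  rcases hcases with h | h | h
  · left; exact h
  · right; exact h
  · rw [h] at h6; norm_num at h6

include hc h2 in
theorem aut_semireg_of_three_invol (h3 : Nat.card {x : A // x ≠ 1 ∧ x * x = 1} ≤ 3)
    (hS3 : Nat.card S = 3) : ∀ σ ∈ S, ∀ x : A, x ≠ 1 → σ x = x → σ = 1 := by
  classical
  intro σ hσ x hx hσx
  have hodd : Odd (Nat.card S) := by rw [hS3]; decide
  have hσ3 : σ ^ 3 = 1 := by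
    have : (⟨σ, hσ⟩ : S) ^ Nat.card S = 1 := pow_card_eq_one'
    rw [hS3] at this
    exact congrArg Subtype.val this
  have hσ3' : ∀ y : A, σ (σ (σ y)) = y := by
    intro y
    have := DFunLike.congr_fun hσ3 y
    simpa [pow_succ, MulAut.mul_apply] using this
  -- an involution fixed by `σ`
  obtain ⟨z₀, hz₀1, hz₀2, hσz₀⟩ : ∃ z₀ : A, z₀ ≠ 1 ∧ z₀ * z₀ = 1 ∧ σ z₀ = z₀ := by
    obtain ⟨k, hk⟩ := h2 x
    have hex : ∃ k, x ^ (2 ^ k) = 1 := ⟨k, hk⟩
    have hk0 := Nat.find_spec hex
    have hkmin := fun j => Nat.find_min hex (m := j)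
    obtain ⟨j, hj⟩ : ∃ j, Nat.find hex = j + 1 := by
      rcases h : Nat.find hex with _ | j
      · rw [h] at hk0
        simp at hk0
        exact absurd hk0 hx
      · exact ⟨j, rfl⟩
    refine ⟨x ^ (2 ^ j), hkmin j (by omega), ?_, by rw [map_pow, hσx]⟩
    rw [← pow_two, ← pow_mul, ← pow_succ, ← hj]
    exact hk0
  apply aut_eq_one_of_fix_invol hc S hodd h2 hσ
  intro z hz
  by_contra hne
  have hz1 : z ≠ 1 := by
    rintro rfl
    exact hne (map_one σ)
  have hinv : ∀ y : A, y ≠ 1 ∧ y * y = 1 → σ y ≠ 1 ∧ σ y * σ y = 1 := by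
    intro y hy
    refine ⟨fun h => hy.1 (σ.injective (by rw [h, map_one])), by rw [← map_mul, hy.2, map_one]⟩
  have m0 : z ≠ 1 ∧ z * z = 1 := ⟨hz1, hz⟩
  have m1 := hinv z m0
  have m2 := hinv _ m1
  have hfin : Fintype {x : A // x ≠ 1 ∧ x * x = 1} := Fintype.ofFinite _
  have hcard : ({⟨z, m0⟩, ⟨σ z, m1⟩, ⟨σ (σ z), m2⟩, ⟨z₀, hz₀1, hz₀2⟩} :
      Finset {x : A // x ≠ 1 ∧ x * x = 1}).card = 4 := by
    have d1 : z ≠ σ z := fun h => hne h.symm
    have d2 : σ z ≠ σ (σ z) := fun h => d1 (σ.injective h)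
    have d3 : z ≠ σ (σ z) := by
      intro h
      apply hne
      have := hσ3' z
      rw [← h] at this
      exact this
    have d4 : z ≠ z₀ := by
      rintro rfl
      exact hne hσz₀
    have d5 : σ z ≠ z₀ := by
      intro h
      apply d4
      apply σ.injective
      rw [h, hσz₀]
    have d6 : σ (σ z) ≠ z₀ := by
      intro h
      apply d5
      apply σ.injective
      rw [h, hσz₀]
    rw [Finset.card_insert_of_notMem, Finset.card_insert_of_notMem, Finset.card_insert_of_notMem,
      Finset.card_singleton]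
    · simpa [Subtype.ext_iff] using d6
    · simp only [Finset.mem_insert, Finset.mem_singleton, Subtype.mk.injEq, not_or]
      exact ⟨d2, d5⟩
    · simp only [Finset.mem_insert, Finset.mem_singleton, Subtype.mk.injEq, not_or]
      exact ⟨d1, d3, d4⟩
  have hle := Finset.card_le_univ ({⟨z, m0⟩, ⟨σ z, m1⟩, ⟨σ (σ z), m2⟩, ⟨z₀, hz₀1, hz₀2⟩} :
      Finset {x : A // x ≠ 1 ∧ x * x = 1})
  rw [hcard, ← Nat.card_eq_fintype_card] at hle
  omega

end aut

end Cfsg.Agent.Lib.Helper74
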