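import Mathlib
import Cfsg.Agent.Lib.Helper74.Homocyclic
import Cfsg.Agent.Lib.Helper74.AbSylowData
import Cfsg.Agent.S0946

/-!
# Sylow `2`-subgroups of type `Z/2^m × Z/2^m`
-/

set_option autoImplicit false
set_option linter.unusedSectionVars false

namespace Cfsg.Agent.Lib.Helper74

open Cfsg

theorem card_invol_le_three {A : Type*} [Group A] [Finite A] (m : ℕ) (hm : 1 ≤ m)
    (e : A ≃* Multiplicative (ZMod (2 ^ m) × ZMod (2 ^ m))) :
    Nat.card {x : A // x ≠ 1 ∧ x * x = 1} ≤ 3 := by
  classical
  have : Fintype A := Fintype.ofFinite A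
  rw [Nat.card_eq_fintype_card, Fintype.card_subtype]
  obtain ⟨a, ha⟩ : ∃ a : ZMod (2 ^ m), a = ((2 ^ (m - 1) : ℕ) : ZMod (2 ^ m)) := ⟨_, rfl⟩
  have hsub : Finset.univ.filter (fun x : A => x ≠ 1 ∧ x * x = 1) ⊆
      {e.symm (Multiplicative.ofAdd (a, 0)), e.symm (Multiplicative.ofAdd (0, a)),
        e.symm (Multiplicative.ofAdd (a, a))} := by
    intro x hx
    rw [Finset.mem_filter] at hx
    obtain ⟨-, hx1, hx2⟩ := hx
    have h1 : e x * e x = 1 := by rw [← map_mul, hx2, map_one]
    have hne : e x ≠ 1 := by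
      intro h
      exact hx1 (e.injective (by rw [h, map_one]))
    obtain ⟨⟨u, v⟩, huv⟩ : ∃ w : ZMod (2 ^ m) × ZMod (2 ^ m),
        e x = Multiplicative.ofAdd w := ⟨Multiplicative.toAdd (e x), rfl⟩
    rw [huv] at h1 hne
    have h2 : (u, v) + (u, v) = 0 := congrArg Multiplicative.toAdd h1
    have hu : u + u = 0 := congrArg Prod.fst h2
    have hv : v + v = 0 := congrArg Prod.snd h2
    have hxe : x = e.symm (Multiplicative.ofAdd (u, v)) := by
      rw [← huv, MulEquiv.symm_apply_apply]
    rw [hxe, ha]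
    rcases Cfsg.Agent.S0946.zmod_add_self_eq_zero m hm u hu with rfl | rfl <;>
      rcases Cfsg.Agent.S0946.zmod_add_self_eq_zero m hm v hv with rfl | rfl
    · exact absurd rfl hne
    · exact Finset.mem_insert_of_mem (Finset.mem_insert_self _ _)
    · exact Finset.mem_insert_self _ _
    · exact Finset.mem_insert_of_mem (Finset.mem_insert_of_mem (Finset.mem_singleton_self _))
  exact (Finset.card_le_card hsub).trans Finset.card_le_three

section sylow

variable {G : Type*} [Group G] [Finite G] {p : ℕ} [Fact p.Prime] (P : Sylow p G)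

theorem not_dvd_card_autS (hab : IsMulCommutative P) : ¬ p ∣ Nat.card (autS P) := by
  rw [card_autS]
  intro h
  have h1 : (Subgroup.centralizer ((P : Subgroup G) : Set G)).relIndex
      (Subgroup.normalizer ((P : Subgroup G) : Set G)) ∣
      (P : Subgroup G).relIndex (Subgroup.normalizer ((P : Subgroup G) : Set G)) :=
    Subgroup.relIndex_dvd_of_le_left _ (ab_le_centralizer P hab)
  have h2 : (P : Subgroup G).relIndex (Subgroup.normalizer ((P : Subgroup G) : Set G)) ∣
      (P : Subgroup G).index :=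
    ⟨_, (Subgroup.relIndex_mul_index Subgroup.le_normalizer).symm⟩
  exact P.not_dvd_index (h.trans (h1.trans h2))

theorem hfrob_of_semireg
    (hS : ∀ σ ∈ autS P, ∀ x : ↥(P : Subgroup G), x ≠ 1 → σ x = x → σ = 1) :
    ∀ y : G, y ∈ (P : Subgroup G) → y ≠ 1 →
    Subgroup.centralizer ({y} : Set G) ⊓ Subgroup.normalizer ((P : Subgroup G) : Set G) =
      Subgroup.centralizer ((P : Subgroup G) : Set G) := by
  intro y hy hy1
  apply le_antisymm
  · intro n hn
    obtain ⟨hn1, hn2⟩ := Subgroup.mem_inf.1 hn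
    rw [Subgroup.mem_centralizer_singleton_iff] at hn1
    have h1 := hS ((P : Subgroup G).normalizerMonoidHom ⟨n, hn2⟩) ⟨_, rfl⟩ ⟨y, hy⟩
      (fun h => hy1 (congrArg Subtype.val h)) (Subtype.ext (by
        show n * y * n⁻¹ = y
        rw [hn1]; group))
    rw [Subgroup.mem_centralizer_iff]
    intro x hx
    have h2 := DFunLike.congr_fun h1 ⟨x, hx⟩
    have h3 : n * x * n⁻¹ = x := congrArg Subtype.val h2
    rw [mul_inv_eq_iff_eq_mul] at h3
    exact h3.symm
  · intro c hc
    refine Subgroup.mem_inf.2 ⟨?_, ?_⟩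
    · rw [Subgroup.mem_centralizer_singleton_iff]
      exact (Subgroup.mem_centralizer_iff.1 hc y hy).symm
    · rw [Subgroup.mem_normalizer_iff]
      intro x
      rw [Subgroup.mem_centralizer_iff] at hc
      constructor
      · intro hx
        rw [← hc x hx]
        simpa using hx
      · intro hx
        have h1 := hc _ hx
        have h2 : x = c * x * c⁻¹ := by
          have : c * x * c⁻¹ * c = c * (c * x * c⁻¹) := h1
          have h3 : c * x = c * (c * x * c⁻¹) := by simpa using this
          exact mul_left_cancel h3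
        rw [h2]; exact hx

end sylow

section homocyclic

variable {G : Type*} [Group G] [Finite G] (P : Sylow 2 G) (m : ℕ) (hm : 1 ≤ m)
  (e : (P : Subgroup G) ≃* Multiplicative (ZMod (2 ^ m) × ZMod (2 ^ m)))

include e in
theorem homocyclic_comm : IsMulCommutative P :=
  ⟨⟨fun a b => e.injective (by rw [map_mul, map_mul, mul_comm])⟩⟩

include hm e in
theorem homocyclic_card_autS : Nat.card (autS P) = 1 ∨ Nat.card (autS P) = 3 := by
  haveI : Fact (Nat.Prime 2) := ⟨Nat.prime_two⟩
  have hab := homocyclic_comm P m e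
  have hodd : Odd (Nat.card (autS P)) := by
    rw [← Nat.not_even_iff_odd, even_iff_two_dvd]
    exact not_dvd_card_autS P hab
  exact card_aut_of_three_invol (ab_hc P hab) (autS P) hodd P.2 (card_invol_le_three m hm e)

include hm e in
theorem homocyclic_hfrob (h3 : Nat.card (autS P) = 3) :
    ∀ y : G, y ∈ (P : Subgroup G) → y ≠ 1 →
    Subgroup.centralizer ({y} : Set G) ⊓ Subgroup.normalizer ((P : Subgroup G) : Set G) =
      Subgroup.centralizer ((P : Subgroup G) : Set G) := by
  haveI : Fact (Nat.Prime 2) := ⟨Nat.prime_two⟩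
  have hab := homocyclic_comm P m e
  exact hfrob_of_semireg P
    (aut_semireg_of_three_invol (ab_hc P hab) (autS P) P.2 (card_invol_le_three m hm e) h3)

end homocyclic

end Cfsg.Agent.Lib.Helper74
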