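import Mathlib
import Cfsg.Agent.Lib.Helper12.PGroupFixed
import Cfsg.Agent.Lib.Helper77.BrauerMap
import Cfsg.Agent.Lib.Helper74.BlockDim
import Cfsg.Agent.Lib.Helper69.MinDimM1
import Cfsg.Agent.Lib.Helper69.MinDimM2
import Cfsg.Agent.Lib.Helper69.MinDimM3

/-!
# Blocks of minimal dimension (helper74)

`A = k[G]e` (`e` a central idempotent, `k` of characteristic `p`) as a module for `T = S × S`,
`S` a `p`-subgroup.  If `dim A * n ≤ |S|²`, where `n` bounds the `p`-subgroups of the centralisers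
of the support of `e`, then `A` has a basis which is a single `T`-orbit with stabilisers of order
`n`; non-vanishing of the Brauer map at `Q` then forces every `x` with `x⁻¹ Q x ≤ S` to act on `Q`
like an element of `S` (`core`).
-/

set_option autoImplicit false
set_option linter.unusedSectionVars false

namespace Cfsg.Agent.Lib.Helper74.MinDim

open MonoidAlgebra Module Cfsg.Agent.Lib.Helper77 Cfsg.Agent.Lib.Helper69.MinDim

universe u v


variable {k : Type v} [Field k] {G : Type u} [Group G]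

/-- index set `G × G` with the twisted action of `S × S` -/
@[ext] structure Om (G : Type u) : Type u where
  z : G
  c : G

/-- `Om G ≃ G × G` -/
def omEquiv (G : Type u) : Om G ≃ G × G where
  toFun ω := (ω.z, ω.c)
  invFun x := ⟨x.1, x.2⟩
  left_inv _ := rfl
  right_inv _ := rfl

noncomputable instance [Fintype G] : Fintype (Om G) := Fintype.ofEquiv _ (omEquiv G).symm

theorem sum_om [Fintype G] {V : Type*} [AddCommMonoid V] (F : Om G → V) :
    ∑ ω, F ω = ∑ z, ∑ c, F ⟨z, c⟩ := by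
  rw [← Fintype.sum_prod_type']
  exact Fintype.sum_equiv (omEquiv G) _ _ fun _ => rfl

instance omAct (S : Subgroup G) : MulAction (S × S) (Om G) where
  smul t ω := ⟨(t.1 : G) * ω.z * (t.2 : G)⁻¹, (t.2 : G) * ω.c * (t.2 : G)⁻¹⟩
  one_smul ω := by
    show (⟨((1 : S × S).1 : G) * ω.z * ((1 : S × S).2 : G)⁻¹,
      ((1 : S × S).2 : G) * ω.c * ((1 : S × S).2 : G)⁻¹⟩ : Om G) = ω
    ext <;> simp
  mul_smul a b ω := by
    show (⟨(((a * b).1 : S) : G) * ω.z * (((a * b).2 : S) : G)⁻¹,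
      (((a * b).2 : S) : G) * ω.c * (((a * b).2 : S) : G)⁻¹⟩ : Om G) =
      ⟨(a.1 : G) * ((b.1 : G) * ω.z * (b.2 : G)⁻¹) * (a.2 : G)⁻¹,
        (a.2 : G) * ((b.2 : G) * ω.c * (b.2 : G)⁻¹) * (a.2 : G)⁻¹⟩
    ext <;> simp [mul_assoc]

theorem smul_z (S : Subgroup G) (t : S × S) (ω : Om G) :
    (t • ω).z = (t.1 : G) * ω.z * (t.2 : G)⁻¹ := rfl

theorem smul_c (S : Subgroup G) (t : S × S) (ω : Om G) :
    (t • ω).c = (t.2 : G) * ω.c * (t.2 : G)⁻¹ := rfl

/-- the bimodule action of `S × S` on the group algebra -/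
noncomputable def rho (S : Subgroup G) : Representation k (S × S) (MonoidAlgebra k G) where
  toFun t := LinearMap.mulLeft k (single (t.1 : G) 1) ∘ₗ
    LinearMap.mulRight k (single ((t.2 : G)⁻¹) 1)
  map_one' := by
    ext a
    simp [← MonoidAlgebra.one_def]
  map_mul' a b := by
    apply LinearMap.ext
    intro x
    show single (((a * b).1 : S) : G) 1 * (x * single ((((a * b).2 : S) : G)⁻¹) 1) =
      single (a.1 : G) 1 * ((single (b.1 : G) 1 * (x * single ((b.2 : G)⁻¹) 1)) *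
        single ((a.2 : G)⁻¹) 1)
    have h1 : (single (((a * b).1 : S) : G) 1 : MonoidAlgebra k G) =
        single (a.1 : G) 1 * single (b.1 : G) 1 := by
      rw [single_mul_single]; simp
    have h2 : (single ((((a * b).2 : S) : G)⁻¹) 1 : MonoidAlgebra k G) =
        single ((b.2 : G)⁻¹) 1 * single ((a.2 : G)⁻¹) 1 := by
      rw [single_mul_single]; simp
    rw [h1, h2]
    simp only [mul_assoc]

theorem rho_apply (S : Subgroup G) (t : S × S) (a : MonoidAlgebra k G) :
    rho S t a = single (t.1 : G) 1 * (a * single ((t.2 : G)⁻¹) 1) := rfl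

theorem coeff_rho (S : Subgroup G) (t : S × S) (a : MonoidAlgebra k G) (x : G) :
    (rho S t a).coeff x = a.coeff ((t.1 : G)⁻¹ * x * (t.2 : G)) := by
  rw [rho_apply, coeff_single_mul_apply, coeff_mul_single_apply]
  simp [mul_assoc]

/-- the family `ω ↦ z c e` -/
noncomputable def ff (e : MonoidAlgebra k G) (ω : Om G) : MonoidAlgebra k G :=
  single (ω.z * ω.c) 1 * e

theorem ff_smul {e : MonoidAlgebra k G} (hc : ∀ a, e * a = a * e) (S : Subgroup G) (t : S × S)
    (ω : Om G) : ff e (t • ω) = rho S t (ff e ω) := by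
  unfold ff
  rw [rho_apply, smul_z, smul_c, mul_assoc (single (ω.z * ω.c) 1), hc]
  simp only [← mul_assoc, single_mul_single, mul_one]
  congr 2
  group

/-- coefficient functional -/
noncomputable def coeffL (g : G) : MonoidAlgebra k G →ₗ[k] k :=
  (Finsupp.lapply g) ∘ₗ (coeffLinearEquiv k).toLinearMap

theorem coeffL_apply (g : G) (a : MonoidAlgebra k G) : coeffL g a = a.coeff g := rfl

section core

variable [Fintype G] {p : ℕ} [Fact p.Prime] [CharP k p]

/-- the block algebra as a subspace -/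
noncomputable abbrev AA (e : MonoidAlgebra k G) : Submodule k (MonoidAlgebra k G) :=
  LinearMap.range (LinearMap.mulRight k e)

theorem mem_AA {e : MonoidAlgebra k G} (he : e * e = e) {a : MonoidAlgebra k G} :
    a ∈ AA e ↔ a * e = a := by
  constructor
  · rintro ⟨b, rfl⟩
    show b * e * e = b * e
    rw [mul_assoc, he]
  · intro h
    exact ⟨a, h⟩

theorem ff_mem (e : MonoidAlgebra k G) (ω : Om G) : ff e ω ∈ AA e := ⟨_, rfl⟩

theorem expand {e w : MonoidAlgebra k G} (he : e * e = e) (hw : w * e = w) :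
    w = ∑ ω : Om G, (w.coeff ω.z * e.coeff ω.c) • ff e ω := by
  rw [sum_om]
  have h1 : w = w * e * e := by rw [hw, hw]
  conv_lhs => rw [h1, eq_sum_single w]
  conv_lhs => enter [1, 2]; rw [eq_sum_single e]
  rw [Finset.sum_mul_sum, Finset.sum_mul]
  refine Finset.sum_congr rfl fun z _ => ?_
  rw [Finset.sum_mul]
  refine Finset.sum_congr rfl fun c _ => ?_
  unfold ff
  rw [single_mul_single, ← smul_mul_assoc, smul_single, smul_eq_mul, mul_one]

theorem isPGroup_prod {S : Subgroup G} (hS : IsPGroup p S) : IsPGroup p (S × S) := by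
  obtain ⟨n, hn⟩ := IsPGroup.iff_card.1 hS
  exact IsPGroup.of_card (n := n + n) (by rw [Nat.card_prod, hn, pow_add])

theorem exists_orbit {e : MonoidAlgebra k G} (hc : ∀ a, e * a = a * e) (he : e * e = e)
    (he0 : e ≠ 0) (S : Subgroup G) (hS : IsPGroup p S) :
    ∃ ω₀ : Om G, e.coeff ω₀.c ≠ 0 ∧
      LinearIndependent k (fun ω : MulAction.orbit (S × S) ω₀ => ff e (ω : Om G)) := by
  classical
  have hT : IsPGroup p (S × S) := isPGroup_prod hS
  have hinv : ∀ g : S × S, ∀ v ∈ AA e, rho S g v ∈ AA e := by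
    intro g v hv
    rw [mem_AA he] at hv ⊢
    rw [rho_apply, mul_assoc, mul_assoc, ← hc, ← mul_assoc v, hv]
  have hne : AA e ≠ ⊥ := by
    intro h
    have : e ∈ AA e := (mem_AA he).2 he
    rw [h] at this
    exact he0 this
  obtain ⟨w, hwA, hw0, hwfix⟩ := Cfsg.Agent.Lib.Helper12.exists_fixed_ne_zero hT (rho S) (AA e) hinv hne
  have hw := (mem_AA he).1 hwA
  have hsum : ∑ ω : Om G, (w.coeff ω.z * e.coeff ω.c) • ff e ω ≠ 0 := by
    rw [← expand he hw]; exact hw0
  obtain ⟨ω₀, hω₀⟩ := exists_orbit_sum_ne_zero (T := S × S) _ hsum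
  have : Fintype (MulAction.orbit (S × S) ω₀) := Fintype.ofFinite _
  have hω₀' := hω₀
  have hconst : ∀ ω : MulAction.orbit (S × S) ω₀,
      w.coeff (ω : Om G).z * e.coeff (ω : Om G).c = w.coeff ω₀.z * e.coeff ω₀.c := by
    rintro ⟨_, t, rfl⟩
    show w.coeff (t • ω₀).z * e.coeff (t • ω₀).c = _
    rw [smul_z, smul_c]
    have h1 : w.coeff ((t.1 : G) * ω₀.z * (t.2 : G)⁻¹) = w.coeff ω₀.z := by
      have := congrArg (fun a => a.coeff ((t.1 : G) * ω₀.z * (t.2 : G)⁻¹)) (hwfix t)
      simp only [coeff_rho] at this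
      rw [← this]
      congr 1
      group
    have h2 : e.coeff ((t.2 : G) * ω₀.c * (t.2 : G)⁻¹) = e.coeff ω₀.c := by
      have h3 : single (t.2 : G) 1 * e * single ((t.2 : G)⁻¹) 1 = e := by
        rw [← hc, mul_assoc, single_mul_single]
        simp [← MonoidAlgebra.one_def]
      have := congrArg (fun a => a.coeff ((t.2 : G) * ω₀.c * (t.2 : G)⁻¹)) h3
      simp only [coeff_mul_single_apply, coeff_single_mul_apply] at this
      rw [← this]
      simp [mul_assoc]
    rw [h1, h2]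
  have hsum2 : (w.coeff ω₀.z * e.coeff ω₀.c) •
      ∑ ω : MulAction.orbit (S × S) ω₀, ff e (ω : Om G) ≠ 0 := by
    rw [Finset.smul_sum]
    intro h
    apply hω₀'
    rw [← h]
    exact Finset.sum_congr rfl fun ω _ => by rw [hconst ω]
  have hc0 : w.coeff ω₀.z * e.coeff ω₀.c ≠ 0 := fun h => hsum2 (by rw [h, zero_smul])
  have hs0 : ∑ ω : MulAction.orbit (S × S) ω₀, ff e (ω : Om G) ≠ 0 :=
    fun h => hsum2 (by rw [h, smul_zero])
  refine ⟨ω₀, right_ne_zero_of_mul hc0, ?_⟩
  exact linInd_of_sum_ne_zero hT (rho S) _ (fun t o => ff_smul hc S t (o : Om G)) hs0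

/-- the stabiliser of `ω` embeds in `S ∩ C(ω.c)` -/
theorem card_stabilizer_le (S : Subgroup G) (hS : IsPGroup p S) (ω : Om G) (n : ℕ)
    (hn : ∀ Q : Subgroup G, IsPGroup p Q → Q ≤ Subgroup.centralizer ({ω.c} : Set G) →
      Nat.card Q ≤ n) :
    Nat.card (MulAction.stabilizer (S × S) ω) ≤ n := by
  let φ : MulAction.stabilizer (S × S) ω →* G :=
    (S.subtype.comp (MonoidHom.snd S S)).comp (MulAction.stabilizer (S × S) ω).subtype
  have hφ : ∀ t : MulAction.stabilizer (S × S) ω, φ t = ((t : S × S).2 : G) := fun _ => rfl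
  have hinj : Function.Injective φ := by
    intro a b hab
    rw [hφ, hφ] at hab
    have ha := congrArg Om.z (MulAction.mem_stabilizer_iff.1 a.2)
    have hb := congrArg Om.z (MulAction.mem_stabilizer_iff.1 b.2)
    rw [smul_z] at ha hb
    apply Subtype.ext
    apply Prod.ext
    · apply Subtype.ext
      have h1 : ((a : S × S).1 : G) = ω.z * ((a : S × S).2 : G) * ω.z⁻¹ := by
        rw [eq_mul_inv_iff_mul_eq, ← mul_inv_eq_iff_eq_mul]; exact ha
      have h2 : ((b : S × S).1 : G) = ω.z * ((b : S × S).2 : G) * ω.z⁻¹ := by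
        rw [eq_mul_inv_iff_mul_eq, ← mul_inv_eq_iff_eq_mul]; exact hb
      rw [h1, h2, hab]
    · exact Subtype.ext hab
  have hcard : Nat.card φ.range = Nat.card (MulAction.stabilizer (S × S) ω) :=
    (Nat.card_congr (MonoidHom.ofInjective hinj).toEquiv).symm
  rw [← hcard]
  apply hn
  · have h1 : IsPGroup p (MulAction.stabilizer (S × S) ω) := (isPGroup_prod hS).to_subgroup _
    exact h1.of_surjective φ.rangeRestrict φ.rangeRestrict_surjective
  · rintro _ ⟨t, rfl⟩
    rw [Subgroup.mem_centralizer_singleton_iff, hφ]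
    have ht := congrArg Om.c (MulAction.mem_stabilizer_iff.1 t.2)
    rw [smul_c] at ht
    rw [mul_inv_eq_iff_eq_mul] at ht
    exact ht

/-- the twisted diagonal embedding `u ↦ (u, x⁻¹ u x)` -/
def iota (S Q : Subgroup G) (hQS : Q ≤ S) (x : G) (hx : ∀ u ∈ Q, x⁻¹ * u * x ∈ S) :
    Q →* S × S where
  toFun u := (⟨u, hQS u.2⟩, ⟨x⁻¹ * u * x, hx u u.2⟩)
  map_one' := by
    apply Prod.ext <;> apply Subtype.ext <;> simp
  map_mul' a b := by
    apply Prod.ext <;> apply Subtype.ext
    · rfl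
    · show x⁻¹ * ((a : G) * (b : G)) * x = (x⁻¹ * a * x) * (x⁻¹ * b * x)
      group

theorem exists_fixed_twisted {e : MonoidAlgebra k G} (hc : ∀ a, e * a = a * e)
    (S : Subgroup G) (ω₀ : Om G)
    (hli : LinearIndependent k (fun ω : MulAction.orbit (S × S) ω₀ => ff e (ω : Om G)))
    (hspan : AA e ≤ Submodule.span k
      (Set.range (fun ω : MulAction.orbit (S × S) ω₀ => ff e (ω : Om G))))
    (Q : Subgroup G) (hQp : IsPGroup p Q) (hQS : Q ≤ S) (x : G)
    (hx : ∀ u ∈ Q, x⁻¹ * u * x ∈ S) (hQ : trunc (Subgroup.centralizer (Q : Set G)) e ≠ 0) :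
    ∃ ω ∈ MulAction.orbit (S × S) ω₀, ∀ u : Q, iota S Q hQS x hx u • ω = ω := by
  classical
  have : Fintype (MulAction.orbit (S × S) ω₀) := Fintype.ofFinite _
  obtain ⟨c, hc0⟩ : ∃ c, (trunc (Subgroup.centralizer (Q : Set G)) e).coeff c ≠ 0 := by
    by_contra hcon
    push Not at hcon
    exact hQ (ma_ext hcon)
  have hcQ : c ∈ Subgroup.centralizer (Q : Set G) := by
    by_contra hcon
    exact hc0 (coeff_trunc_of_not_mem _ hcon)
  rw [coeff_trunc_of_mem _ hcQ] at hc0
  have hcomm : ∀ u ∈ Q, u * c = c * u := fun u hu => Subgroup.mem_centralizer_iff.1 hcQ u hu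
  obtain ⟨o, ho⟩ := exists_fixed_of_functional (p := p) (rho S) (O := MulAction.orbit (S × S) ω₀)
    (fun ω => ff e (ω : Om G)) (fun t o => ff_smul hc S t (o : Om G)) hli hQp (iota S Q hQS x hx)
    (coeffL (c * x))
    (by
      intro u v
      rw [coeffL_apply, coeffL_apply, coeff_rho]
      congr 1
      show (u : G)⁻¹ * (c * x) * (x⁻¹ * u * x) = c * x
      have := hcomm u u.2
      calc (u : G)⁻¹ * (c * x) * (x⁻¹ * u * x) = (u : G)⁻¹ * (c * u) * x := by group
        _ = c * x := by rw [← this]; group)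
    (e * single x 1)
    (hspan ⟨single x 1, by show single x 1 * e = _; rw [hc]⟩)
    (by
      intro u
      rw [rho_apply]
      show single (u : G) 1 * (e * single x 1 * single ((x⁻¹ * u * x)⁻¹) 1) = _
      rw [mul_assoc, single_mul_single, ← mul_assoc, ← hc, mul_assoc, single_mul_single]
      congr 2
      · group
      · simp)
    (by
      rw [coeffL_apply, coeff_mul_single_apply]
      simpa using hc0)
  exact ⟨o, o.2, fun u => congrArg Subtype.val (ho u)⟩

theorem card_orbit_mul (S : Subgroup G) (ω : Om G) :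
    Nat.card (MulAction.orbit (S × S) ω) * Nat.card (MulAction.stabilizer (S × S) ω)
      = Nat.card S ^ 2 := by
  classical
  have : Fintype (S × S) := Fintype.ofFinite _
  have : Fintype (MulAction.orbit (S × S) ω) := Fintype.ofFinite _
  have : Fintype (MulAction.stabilizer (S × S) ω) := Fintype.ofFinite _
  have h := MulAction.card_orbit_mul_card_stabilizer_eq_card_group (S × S) ω
  rw [Nat.card_eq_fintype_card, Nat.card_eq_fintype_card, h, ← Nat.card_eq_fintype_card,
    Nat.card_prod, sq]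

theorem core {e : MonoidAlgebra k G} (hc : ∀ a, e * a = a * e) (he : e * e = e) (he0 : e ≠ 0)
    (S : Subgroup G) (hS : IsPGroup p S) (n : ℕ)
    (hsupp : ∀ y, e.coeff y ≠ 0 → ∀ Q : Subgroup G, IsPGroup p Q →
      Q ≤ Subgroup.centralizer ({y} : Set G) → Nat.card Q ≤ n)
    (hdim : BlockDim.rk e * n ≤ Nat.card S ^ 2)
    (D₁ : Subgroup G) (hD₁S : D₁ ≤ S) (hD₁n : Nat.card D₁ = n)
    (hD₁ : trunc (Subgroup.centralizer (D₁ : Set G)) e ≠ 0)
    (Q : Subgroup G) (hQS : Q ≤ S) (hQ : trunc (Subgroup.centralizer (Q : Set G)) e ≠ 0)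
    (x : G) (hx : ∀ u ∈ Q, x⁻¹ * u * x ∈ S) :
    ∃ r ∈ S, ∀ u ∈ Q, x⁻¹ * u * x = r⁻¹ * u * r := by
  classical
  obtain ⟨ω₀, hβ, hli⟩ := exists_orbit (p := p) hc he he0 S hS
  have : Fintype (MulAction.orbit (S × S) ω₀) := Fintype.ofFinite _
  have h1 := card_orbit_mul S ω₀
  have h2 := card_stabilizer_le S hS ω₀ n (hsupp _ hβ)
  have hle : Submodule.span k
      (Set.range (fun ω : MulAction.orbit (S × S) ω₀ => ff e (ω : Om G))) ≤ AA e := by
    rw [Submodule.span_le]
    rintro _ ⟨ω, rfl⟩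
    exact ff_mem e _
  have hfr := finrank_span_eq_card hli
  have h3 : Nat.card (MulAction.orbit (S × S) ω₀) ≤ BlockDim.rk e := by
    rw [Nat.card_eq_fintype_card, ← hfr]
    exact Submodule.finrank_mono hle
  have hpos : 0 < Nat.card (MulAction.stabilizer (S × S) ω₀) := Nat.card_pos
  have hposO : 0 < Nat.card (MulAction.orbit (S × S) ω₀) := by
    have : Nonempty (MulAction.orbit (S × S) ω₀) := ⟨⟨ω₀, MulAction.mem_orbit_self _⟩⟩
    exact Nat.card_pos
  have h4 : Nat.card (MulAction.orbit (S × S) ω₀) = BlockDim.rk e := by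
    by_contra hne
    have hlt : Nat.card (MulAction.orbit (S × S) ω₀) < BlockDim.rk e := lt_of_le_of_ne h3 hne
    have : Nat.card (MulAction.orbit (S × S) ω₀) * Nat.card (MulAction.stabilizer (S × S) ω₀)
        < BlockDim.rk e * n :=
      calc _ < BlockDim.rk e * Nat.card (MulAction.stabilizer (S × S) ω₀) :=
            Nat.mul_lt_mul_of_pos_right hlt hpos
        _ ≤ BlockDim.rk e * n := Nat.mul_le_mul_left _ h2
    omega
  have h5 : Nat.card (MulAction.stabilizer (S × S) ω₀) = n := by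
    by_contra hne
    have hlt : Nat.card (MulAction.stabilizer (S × S) ω₀) < n := lt_of_le_of_ne h2 hne
    have : Nat.card (MulAction.orbit (S × S) ω₀) * Nat.card (MulAction.stabilizer (S × S) ω₀)
        < BlockDim.rk e * n := by
      rw [h4]
      exact Nat.mul_lt_mul_of_pos_left hlt (h4 ▸ hposO)
    omega
  have hspan : AA e ≤ Submodule.span k
      (Set.range (fun ω : MulAction.orbit (S × S) ω₀ => ff e (ω : Om G))) := by
    have : Submodule.span k
      (Set.range (fun ω : MulAction.orbit (S × S) ω₀ => ff e (ω : Om G))) = AA e := by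
      apply Submodule.eq_of_le_of_finrank_le hle
      rw [hfr, ← Nat.card_eq_fintype_card, h4]
      exact le_refl _
    rw [this]
  -- the defect group
  obtain ⟨ω₁, hω₁, hfix₁⟩ := exists_fixed_twisted (p := p) hc S ω₀ hli hspan D₁
    (hS.to_le hD₁S) hD₁S 1 (fun u hu => by simpa using hD₁S hu) hD₁
  have horb : MulAction.orbit (S × S) ω₁ = MulAction.orbit (S × S) ω₀ :=
    MulAction.orbit_eq_iff.2 hω₁
  have h6 : Nat.card (MulAction.stabilizer (S × S) ω₁) = n := by
    have h7 := card_orbit_mul S ω₁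
    rw [horb, ← h1] at h7
    rw [← h5]
    exact Nat.eq_of_mul_eq_mul_left hposO h7
  have hdiag : ∀ t ∈ MulAction.stabilizer (S × S) ω₁, ((t.1 : S) : G) = ((t.2 : S) : G) := by
    let j : D₁ → MulAction.stabilizer (S × S) ω₁ := fun u =>
      ⟨iota S D₁ hD₁S 1 (fun u hu => by simpa using hD₁S hu) u, hfix₁ u⟩
    have hj : Function.Injective j := by
      intro a b hab
      have := congrArg (fun t : MulAction.stabilizer (S × S) ω₁ => (((t : S × S).1 : S) : G)) hab
      exact Subtype.ext this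
    have hbij := hj.bijective_of_nat_card_le (by rw [h6, hD₁n])
    intro t ht
    obtain ⟨u, hu⟩ := hbij.2 ⟨t, ht⟩
    have h8 : t = iota S D₁ hD₁S 1 (fun u hu => by simpa using hD₁S hu) u :=
      (congrArg Subtype.val hu).symm
    rw [h8]
    show (u : G) = 1⁻¹ * (u : G) * 1
    simp
  obtain ⟨ω₂, hω₂, hfix₂⟩ := exists_fixed_twisted (p := p) hc S ω₀ hli hspan Q
    (hS.to_le hQS) hQS x hx hQ
  rw [← horb] at hω₂
  obtain ⟨t, ht⟩ := hω₂
  have ht' : t • ω₁ = ω₂ := ht
  refine ⟨(t.1 : G) * (t.2 : G)⁻¹, S.mul_mem t.1.2 (S.inv_mem t.2.2), fun u hu => ?_⟩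
  have h9 : t⁻¹ * iota S Q hQS x hx ⟨u, hu⟩ * t ∈ MulAction.stabilizer (S × S) ω₁ := by
    rw [MulAction.mem_stabilizer_iff, mul_smul, mul_smul, ht', hfix₂, ← ht', inv_smul_smul]
  have h10 := hdiag _ h9
  have h11 : (t.1 : G)⁻¹ * u * (t.1 : G) = (t.2 : G)⁻¹ * (x⁻¹ * u * x) * (t.2 : G) := h10
  calc x⁻¹ * u * x = (t.2 : G) * ((t.2 : G)⁻¹ * (x⁻¹ * u * x) * (t.2 : G)) * (t.2 : G)⁻¹ := by group
    _ = (t.2 : G) * ((t.1 : G)⁻¹ * u * (t.1 : G)) * (t.2 : G)⁻¹ := by rw [h11]
    _ = ((t.1 : G) * (t.2 : G)⁻¹)⁻¹ * u * ((t.1 : G) * (t.2 : G)⁻¹) := by group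

end core

end Cfsg.Agent.Lib.Helper74.MinDim
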