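import Cfsg.Agent.Lib.Helper74.SymAlgCen
import Cfsg.Agent.Lib.Helper59.SymAlgT4
import Cfsg.Agent.Lib.Helper59.SymAlgT5
import Cfsg.Agent.Lib.Helper65.SymAlgT1
import Cfsg.Agent.Lib.Helper65.SymAlgT2
import Cfsg.Agent.Lib.Helper65.SymAlgT3
import Cfsg.Agent.Lib.Helper73.SymAlgR4
import Cfsg.Agent.Lib.Helper96.SymAlgR2

/-!
# Symmetric algebras with one simple module and centre of dimension at most four (helper74)

Such an algebra is a full matrix algebra over its (commutative, local) centre.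
-/

set_option autoImplicit false

namespace Cfsg.Agent.Lib.Helper74.SymAlg

open Module

variable {F A : Type*} [Field F] [Ring A] [Algebra F A] [FiniteDimensional F A]

theorem R5 {lam : A →ₗ[F] F} (h : IsSymForm lam) {n : ℕ} (hn : 0 < n)
    (φ : A →ₐ[F] Matrix (Fin n) (Fin n) F) (hφ : Function.Surjective φ)
    (hJ : ∀ x, φ x = 0 ↔ x ∈ Ring.jacobson A)
    (hZ : finrank F (Subalgebra.center F A) ≤ 4) :
    finrank F A = finrank F (Subalgebra.center F A) * n ^ 2 ∧
      ∃ ε : A, ε * ε = ε ∧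
        finrank F (LinearMap.range (LinearMap.mulRight F ε))
          = finrank F (Subalgebra.center F A) * n := by
  obtain ⟨a, hmul, hone, ha⟩ := Cfsg.Agent.Lib.Helper96.SymAlgR2.R2 φ hφ hJ
  let i₀ : Fin n := ⟨0, hn⟩
  obtain ⟨π, hπ⟩ := Cfsg.Agent.Lib.Helper59.SymAlgT5.T5 a hmul hone i₀ φ ha hJ
  have hsym := Cfsg.Agent.Lib.Helper59.SymAlgT4.T4 a hmul hone i₀ h
  have hcen := Cfsg.Agent.Lib.Helper65.SymAlgT.T3 (F := F) a hmul hone
  have hcomm := Cfsg.Agent.Lib.Helper73.SymAlgR4.R4 hsym π hπ (hcen.trans_le hZ)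
  have htop : Subalgebra.center F (cenU F a) = ⊤ := by
    rw [eq_top_iff]
    intro x _
    rw [Subalgebra.mem_center_iff]
    intro b
    exact hcomm b x
  have hfr : finrank F (cenU F a) = finrank F (Subalgebra.center F A) := by
    rw [← hcen, htop]
    exact (Subalgebra.topEquiv (R := F) (A := cenU F a)).toLinearEquiv.finrank_eq.symm
  obtain ⟨e, -⟩ := Cfsg.Agent.Lib.Helper65.SymAlgT.T1 (F := F) a hmul hone
  refine ⟨?_, a i₀ i₀, by rw [hmul, if_pos rfl], ?_⟩
  · rw [← e.finrank_eq, ← hfr]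
    simp [Module.finrank_pi_fintype]
    ring
  · rw [Cfsg.Agent.Lib.Helper65.SymAlgT.T2 a hmul hone i₀, hfr, mul_comm]

end Cfsg.Agent.Lib.Helper74.SymAlg
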